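import Cfsg.Agent.OMax.SubfieldD
import Cfsg.Agent.OMax.Max

/-!
Subfield subgroups of orthogonal groups: matrix form.
-/

set_option autoImplicit false
set_option linter.unusedSectionVars false

namespace Cfsg.Agent.OMax

open QuadraticMap Cfsg.Agent.Orth Matrix
open scoped MatrixGroups

variable {ι : Type} [Fintype ι] [DecidableEq ι] {F : Type*} [Field F]

/-- The rational vectors of the structure `P`. -/
def jP (F₀ : Subfield F) (P : GL ι F) (u : ι → F₀) : ι → F :=
  (P : Matrix ι ι F) *ᵥ fun i => (u i : F)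

theorem jP_add (F₀ : Subfield F) (P : GL ι F) (u u' : ι → F₀) :
    jP F₀ P (u + u') = jP F₀ P u + jP F₀ P u' := by
  unfold jP
  rw [← Matrix.mulVec_add]
  congr 1

theorem jP_smul (F₀ : Subfield F) (P : GL ι F) (k : F₀) (u : ι → F₀) :
    jP F₀ P (k • u) = (k : F) • jP F₀ P u := by
  unfold jP
  rw [← Matrix.mulVec_smul]
  congr 1

/-- The rational form. -/
noncomputable def ratForm (Q : QuadraticForm F (ι → F)) (F₀ : Subfield F) (P : GL ι F)
    (hP : ∀ u : ι → F₀, Q (jP F₀ P u) ∈ F₀) : QuadraticForm F₀ (ι → F₀) :=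
  QuadraticMap.ofPolar (fun u => ⟨Q (jP F₀ P u), hP u⟩)
    (by
      intro a x
      apply Subtype.ext
      change Q (jP F₀ P (a • x)) = ((a * a : F₀) : F) * Q (jP F₀ P x)
      rw [jP_smul, qsmul]; rfl)
    (by
      intro x x' y
      apply Subtype.ext
      have h := pal Q (jP F₀ P x) (jP F₀ P x') (jP F₀ P y)
      simp only [polar, ← jP_add] at h
      exact h)
    (by
      intro a x y
      apply Subtype.ext
      have h := psl Q (a : F) (jP F₀ P x) (jP F₀ P y)
      rw [← jP_smul] at h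
      simp only [polar, ← jP_add] at h
      exact h)

theorem coe_ratForm (Q : QuadraticForm F (ι → F)) (F₀ : Subfield F) (P : GL ι F)
    (hP : ∀ u : ι → F₀, Q (jP F₀ P u) ∈ F₀) (u : ι → F₀) :
    ((ratForm Q F₀ P hP u : F₀) : F) = Q (jP F₀ P u) := rfl

theorem ratF (Q : QuadraticForm F (ι → F)) (F₀ : Subfield F) (P : GL ι F)
    (hP : ∀ u : ι → F₀, Q (jP F₀ P u) ∈ F₀) : RatF (ratForm Q F₀ P hP) Q (jP F₀ P) := by
  refine ⟨jP_add F₀ P, jP_smul F₀ P, ?_, fun u => (coe_ratForm Q F₀ P hP u).symm⟩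
  refine ⟨Fintype.card ι, (Pi.basisFun F₀ ι).reindex (Fintype.equivFin ι),
    ((Pi.basisFun F ι).map (glE ι F P : (ι → F) ≃ₗ[F] (ι → F))).reindex (Fintype.equivFin ι),
    fun i => ?_⟩
  rw [Module.Basis.reindex_apply, Module.Basis.reindex_apply, Module.Basis.map_apply,
    Pi.basisFun_apply, Pi.basisFun_apply]
  change (P : Matrix ι ι F) *ᵥ _ = (P : Matrix ι ι F) *ᵥ _
  congr 1
  ext k
  by_cases hk : k = (Fintype.equivFin ι).symm i
  · subst hk; simp
  · simp [Pi.single_eq_of_ne hk]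

/-- Membership in the subfield group. -/
theorem mem_subfield_iff (F₀ : Subfield F) (P g : GL ι F) :
    g ∈ Cfsg.Geo.subfieldSubgroup F₀ P ↔
      ∃ c : F, c ≠ 0 ∧ ∀ u, ∃ u', (g : Matrix ι ι F) *ᵥ jP F₀ P u = c • jP F₀ P u' := by
  have hinv : ∀ x : ι → F, ((P⁻¹ : GL ι F) : Matrix ι ι F) *ᵥ ((P : Matrix ι ι F) *ᵥ x) = x := by
    intro x
    rw [Matrix.mulVec_mulVec, ← Units.val_mul, inv_mul_cancel, Units.val_one, Matrix.one_mulVec]
  constructor
  · rintro ⟨A, hA, rfl⟩
    obtain ⟨a, ⟨B, rfl⟩, c, hc, rfl⟩ := Subgroup.mem_sup_of_normal_right.1 hA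
    obtain ⟨l, hcl⟩ := (Cfsg.Geo.mem_scalars_iff _).1 hc
    refine ⟨l, l.ne_zero, fun u => ⟨(B : Matrix ι ι F₀) *ᵥ u, ?_⟩⟩
    change ((P * _ * P⁻¹ : GL ι F) : Matrix ι ι F) *ᵥ _ = _
    unfold jP
    rw [Units.val_mul, Units.val_mul, ← Matrix.mulVec_mulVec, ← Matrix.mulVec_mulVec, hinv,
      ← Matrix.mulVec_smul]
    congr 1
    rw [Units.val_mul, hcl, Matrix.mul_smul, Matrix.mul_one, Matrix.smul_mulVec]
    congr 1
    ext i
    simp [Matrix.mulVec, dotProduct]
  · rintro ⟨l, hl, h⟩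
    choose φ hφ using fun j : ι => h (Pi.single j 1)
    set B : Matrix ι ι F₀ := fun i j => φ j i with hB
    set A : GL ι F := P⁻¹ * g * P with hA
    have hmat : (A : Matrix ι ι F) = l • B.map (F₀.subtype : F₀ →+* F) := by
      ext i j
      have h1 : ((P⁻¹ : GL ι F) : Matrix ι ι F) *ᵥ ((g : Matrix ι ι F) *ᵥ
          jP F₀ P (Pi.single j 1)) = ((P⁻¹ : GL ι F) : Matrix ι ι F) *ᵥ (l • jP F₀ P (φ j)) := by
        rw [hφ j]
      rw [Matrix.mulVec_smul] at h1
      unfold jP at h1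
      rw [hinv] at h1
      have h2 := congrFun h1 i
      have h3 : (fun k => (((Pi.single j 1 : ι → F₀) k : F₀) : F)) = Pi.single j 1 := by
        ext k
        by_cases hk : k = j
        · subst hk; simp
        · simp [Pi.single_eq_of_ne hk]
      rw [h3, Matrix.mulVec_mulVec, Matrix.mulVec_mulVec, Matrix.mulVec_single_one,
        ← Units.val_mul, ← Units.val_mul] at h2
      rw [hA]
      exact h2
    have hdet : B.det ≠ 0 := by
      intro h0
      have h1 : (A : Matrix ι ι F).det ≠ 0 := A.isUnit.map Matrix.detMonoidHom |>.ne_zero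
      apply h1
      rw [hmat, Matrix.det_smul]
      have : (B.map (F₀.subtype : F₀ →+* F)).det = F₀.subtype B.det := (RingHom.map_det _ _).symm
      rw [this, h0, map_zero, mul_zero]
    refine ⟨A, ?_, ?_⟩
    · set B' : GL ι F₀ := Matrix.GeneralLinearGroup.mkOfDetNeZero B hdet with hB'
      rw [SetLike.mem_coe, Subgroup.mem_sup_of_normal_right]
      refine ⟨Matrix.GeneralLinearGroup.map (F₀.subtype : F₀ →+* F) B', ⟨B', rfl⟩,
        Units.map (Matrix.scalar ι : F →+* Matrix ι ι F).toMonoidHom (Units.mk0 l hl), ⟨_, rfl⟩, ?_⟩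
      apply Units.ext
      rw [Units.val_mul, hmat]
      ext i j
      simp [hB', Matrix.GeneralLinearGroup.mkOfDetNeZero, mul_comm]
    · change P * (P⁻¹ * g * P) * P⁻¹ = g
      group

/-- Prime degree: no intermediate rings. -/
theorem hdeg_of_card [Fintype F] (F₀ : Subfield F) (r : ℕ) (hr : r.Prime)
    (hcard : Fintype.card F = Nat.card F₀ ^ r) (S : Subring F)
    (h1 : ∀ k : F₀, algebraMap F₀ F k ∈ S) (h2 : ∃ x ∈ S, ∀ k : F₀, algebraMap F₀ F k ≠ x) :
    S = ⊤ := by
  have hfin : Module.finrank F₀ F = r := by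
    have h3 : Nat.card F = Nat.card F₀ ^ Module.finrank F₀ F := Module.natCard_eq_pow_finrank
    rw [Nat.card_eq_fintype_card, hcard] at h3
    exact (Nat.pow_right_injective Finite.one_lt_card h3).symm
  have hsimple : IsSimpleOrder (IntermediateField F₀ F) :=
    IntermediateField.isSimpleOrder_of_finrank_prime F₀ F (by rw [hfin]; exact hr)
  obtain ⟨x, hxS, hx⟩ := h2
  have hE : IntermediateField.adjoin F₀ {x} = ⊤ := by
    rcases eq_bot_or_eq_top (IntermediateField.adjoin F₀ {x}) with h | h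
    · exfalso
      have : x ∈ (⊥ : IntermediateField F₀ F) := by
        rw [← h]; exact IntermediateField.mem_adjoin_simple_self F₀ x
      obtain ⟨k, hk⟩ := IntermediateField.mem_bot.1 this
      exact hx k hk
    · exact h
  have hA : Algebra.adjoin F₀ {x} = ⊤ := by
    have h3 := IntermediateField.adjoin_simple_toSubalgebra_of_isAlgebraic (F := F₀) (α := x)
      (Algebra.IsAlgebraic.isAlgebraic x)
    rw [hE] at h3
    exact h3.symm
  rw [eq_top_iff]
  intro y _
  have hy : y ∈ Algebra.adjoin F₀ {x} := by rw [hA]; trivial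
  induction hy using Algebra.adjoin_induction with
  | mem z hz => rw [Set.mem_singleton_iff] at hz; rw [hz]; exact hxS
  | algebraMap k => exact h1 k
  | add a b _ _ ha hb => exact S.add_mem (ha trivial) (hb trivial)
  | mul a b _ _ ha hb => exact S.mul_mem (ha trivial) (hb trivial)

/-- The commutator subgroup does not preserve the structure. -/
theorem subfield_proper {K : Type*} [Field K] [Algebra K F] [Finite K] [Finite F]
    {U V : Type*} [AddCommGroup U]
    [Module K U] [AddCommGroup V] [Module F V] {q : QuadraticForm K U} {Q : QuadraticForm F V}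
    {j : U → V} (R : RatF q Q j)
    (hQ : (polarBilin Q).Nondegenerate) (hn : 11 ≤ Module.finrank F V)
    (hne : ∃ t : F, ∀ k : K, algebraMap K F k ≠ t) :
    ∃ h ∈ commutator (OGrp Q), ¬ Pres j h := by
  have hfd := R.fd
  have hfdV := R.fdV
  have hnq := R.nd hQ
  have hfr := R.finrank_eq
  obtain ⟨t, ht⟩ := hne
  obtain ⟨e, he0, he⟩ := exists_singular hnq (by omega)
  obtain ⟨e', he', hee⟩ := exists_partner hnq he he0
  obtain ⟨b, b', hb, hb', hbb, heb, heb', -, -⟩ := exists_hyp_perp_pair hnq (by omega) e e'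
  have h1 : Q (j e) = 0 := by rw [R.jq, he, map_zero]
  have h2 : polar Q (j e) (t • j b) = 0 := by rw [psr, R.jpolar, heb, map_zero, mul_zero]
  refine ⟨eich Q (j e) (t • j b) h1 h2, eich_mem_comm hQ (by omega) h1 h2, ?_⟩
  rintro ⟨c, hc0, hc⟩
  obtain ⟨u, hu⟩ := hc e
  rw [eich_fix h1 h2 (by rw [pself, h1, mul_zero]) h2] at hu
  have hu0 : u ≠ 0 := by
    rintro rfl
    rw [R.j0, smul_zero] at hu
    exact R.jne he0 hu
  obtain ⟨k, hk, -⟩ := R.jscal hu0 hu.symm
  obtain ⟨u', hu'⟩ := hc e'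
  have hQb : Q (t • j b) = 0 := by rw [qsmul, R.jq, hb, map_zero, mul_zero]
  rw [eich_apply, hQb, zero_mul, zero_smul, sub_zero, psr, R.jpolar, heb', map_zero, mul_zero,
    zero_smul, add_zero, R.jpolar, pc q e' e, hee, map_one, one_smul, ← hk, ← R.jsmul] at hu'
  have h3 : t • j b = j (e' - k • u') := by rw [R.jsub, ← hu']; module
  have hb0 : b ≠ 0 := by
    rintro rfl
    rw [polar_zero_left] at hbb
    exact zero_ne_one hbb
  obtain ⟨k', hk', -⟩ := R.jscal hb0 h3
  exact ht k' hk'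

/-- **Maximality of subfield subgroups.** -/
theorem subfield_isMaximalIn [Fintype F] (Q : QuadraticForm F (ι → F))
    (hQ : (polarBilin Q).Nondegenerate) (hn : 11 ≤ Fintype.card ι) (F₀ : Subfield F) (r : ℕ)
    (hr : r.Prime) (hcard : Fintype.card F = Nat.card F₀ ^ r) (P : GL ι F)
    (hP : ∀ u : ι → F₀, Q (jP F₀ P u) ∈ F₀) :
    Cfsg.Geo.IsMaximalIn (Cfsg.Geo.omegaGL ⇑Q)
      (Cfsg.Geo.subfieldSubgroup F₀ P ⊓ Cfsg.Geo.omegaGL ⇑Q) := by
  have hfr : Module.finrank F (ι → F) = Fintype.card ι := Module.finrank_fintype_fun_eq_card F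
  have R := ratF Q F₀ P hP
  have hdeg := hdeg_of_card F₀ r hr hcard
  have hne : ∃ t : F, ∀ k : F₀, algebraMap F₀ F k ≠ t := by
    by_contra hcon
    push Not at hcon
    have h1 : Function.Surjective (algebraMap F₀ F) := hcon
    have h2 := Nat.card_le_card_of_surjective _ h1
    rw [Nat.card_eq_fintype_card (α := F), hcard] at h2
    have h3 : 2 ≤ Nat.card F₀ := Finite.one_lt_card
    have h4 : Nat.card F₀ ^ 2 ≤ Nat.card F₀ ^ r := Nat.pow_le_pow_right (by omega) hr.two_le
    nlinarith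
  refine isMaximalIn_of_abstract Q (Cfsg.Geo.subfieldSubgroup F₀ P) (fun g => Pres (jP F₀ P) g)
    (fun g => mem_subfield_iff F₀ P g) (subfield_proper R hQ (by rw [hfr]; omega) hne) ?_
  intro M _ hHM hM
  refine subfield_maximal R hQ (by rw [hfr]; omega) ?_ hdeg hM
  intro a b ha hab
  have h1 : Q (jP F₀ P a) = 0 := by rw [R.jq, ha, map_zero]
  have h2 : polar Q (jP F₀ P a) (jP F₀ P b) = 0 := by rw [R.jpolar, hab, map_zero]
  refine ⟨h1, h2, hHM _ (eich_mem_comm hQ (by rw [hfr]; omega) h1 h2) ⟨1, one_ne_zero, fun u => ?_⟩⟩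
  exact ⟨_, by rw [one_smul]; exact eich_j R ha hab h1 h2 u⟩

/-- `Ω` does not change when the form is multiplied by a scalar. -/
theorem omegaGL_smul (Q : (ι → F) → F) {ζ : F} (hζ : ζ ≠ 0) :
    Cfsg.Geo.omegaGL (fun v => ζ * Q v) = Cfsg.Geo.omegaGL Q := by
  have h : Cfsg.isometryGroup F (fun v => ζ * Q v) = Cfsg.isometryGroup F Q := by
    ext g
    constructor
    · intro hg u v
      exact mul_left_cancel₀ hζ (hg u v)
    · intro hg u v
      exact congrArg (fun t => ζ * t) (hg u v)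
  exact congrArg (fun H : Subgroup (GL ι F) => (commutator ↥H).map H.subtype) h

/-- A quadratic form from the frozen predicate. -/
def qfOf {Q : (ι → F) → F} (hQ : Cfsg.Geo.IsNondegenerateQuadraticForm Q) :
    QuadraticForm F (ι → F) :=
  QuadraticMap.ofPolar Q (fun a x => by rw [hQ.smul, smul_eq_mul]; ring)
    (fun x x' y => hQ.polar_bilinear.add_left x x' y)
    (fun a x y => hQ.polar_bilinear.smul_left a x y)

theorem coe_qfOf {Q : (ι → F) → F} (hQ : Cfsg.Geo.IsNondegenerateQuadraticForm Q) :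
    ⇑(qfOf hQ) = Q := rfl

theorem qfOf_nondegenerate {Q : (ι → F) → F} (hQ : Cfsg.Geo.IsNondegenerateQuadraticForm Q) :
    (polarBilin (qfOf hQ)).Nondegenerate := by
  have key : ∀ u : ι → F, (∀ v, polar (qfOf hQ) u v = 0) → u = 0 := by
    intro u hu
    by_contra hne
    obtain ⟨-, y, hy⟩ := hQ.nondegenerate u hne
    exact hy (hu y)
  refine ⟨fun u hu => key u hu, fun u hu => key u fun v => ?_⟩
  rw [pc]; exact hu v

theorem smul_nondegenerate {Q : QuadraticForm F (ι → F)} (hQ : (polarBilin Q).Nondegenerate)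
    {ζ : F} (hζ : ζ ≠ 0) : (polarBilin (ζ • Q)).Nondegenerate := by
  have key : ∀ u : ι → F, (∀ v, polar (ζ • Q) u v = 0) → u = 0 := by
    intro u hu
    refine hQ.1 u fun v => ?_
    have h := hu v
    have h1 : polar (ζ • Q) u v = ζ * polar Q u v := by
      simp only [polar, _root_.smul_apply, smul_eq_mul]; ring
    rw [h1] at h
    exact (mul_eq_zero.1 h).resolve_left hζ
  refine ⟨fun u hu => key u hu, fun u hu => key u fun v => ?_⟩
  rw [pc]; exact hu v

end Cfsg.Agent.OMax
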