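import Cfsg.Agent.OMax.O33

/-!
Tensor decompositions with a three-dimensional orthogonal factor over the field with three elements.
-/

set_option autoImplicit false
set_option linter.unusedSectionVars false

namespace Cfsg.Agent.OMax

open QuadraticMap Cfsg.Agent.Orth
open scoped Matrix Kronecker

section

variable {F : Type*} [Field F]

/-- Pure tensors in coordinates. -/
def ptens {n₁ n₂ : ℕ} (x : Fin n₁ → F) (y : Fin n₂ → F) : Fin n₁ × Fin n₂ → F :=
  fun p => x p.1 * y p.2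

theorem ptens_inj {n₁ n₂ : ℕ} {a c : Fin n₁ → F} {b d : Fin n₂ → F} (h : ptens a b = ptens c d)
    (hc : c ≠ 0) (hd : d ≠ 0) : ∃ ν : F, a = ν • c ∧ d = ν • b := by
  obtain ⟨i, hi⟩ : ∃ i, c i ≠ 0 := by
    by_contra hcon; push Not at hcon; exact hc (funext hcon)
  have h1 : ∀ i j, a i * b j = c i * d j := fun i j => congrFun h (i, j)
  have hd' : d = (a i / c i) • b := by
    funext j
    rw [Pi.smul_apply, smul_eq_mul]
    rw [div_mul_eq_mul_div, h1, mul_div_cancel_left₀ _ hi]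
  refine ⟨a i / c i, ?_, hd'⟩
  obtain ⟨j, hj⟩ : ∃ j, d j ≠ 0 := by
    by_contra hcon; push Not at hcon; exact hd (funext hcon)
  have hj' : d j = (a i / c i) * b j := congrFun hd' j
  have hb : b j ≠ 0 := fun h => hj (by rw [hj', h, mul_zero])
  funext k
  rw [Pi.smul_apply, smul_eq_mul]
  have h2 := h1 k j
  rw [hj'] at h2
  have h3 : (a k - a i / c i * c k) * b j = 0 := by linear_combination h2
  rcases mul_eq_zero.1 h3 with h4 | h4
  · linear_combination h4
  · exact absurd h4 hb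

/-- A bi-additive pairing with the cancellation property of the tensor product. -/
structure Tau {V : Type*} [AddCommGroup V] [Module F V] {n₁ n₂ : ℕ}
    (τ : (Fin n₁ → F) → (Fin n₂ → F) → V) : Prop where
  add_left : ∀ x x' y, τ (x + x') y = τ x y + τ x' y
  smul_left : ∀ (c : F) x y, τ (c • x) y = c • τ x y
  add_right : ∀ x y y', τ x (y + y') = τ x y + τ x y'
  smul_right : ∀ (c : F) x y, τ x (c • y) = c • τ x y
  inj : ∀ a b c d, τ a b = τ c d → c ≠ 0 → d ≠ 0 → ∃ ν : F, a = ν • c ∧ d = ν • b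

variable {ι : Type} [Fintype ι] [DecidableEq ι] {n₁ n₂ : ℕ}

/-- The vector with tensor coordinates `w`. -/
def tvc (e : ι ≃ Fin n₁ × Fin n₂) (P : Matrix.GeneralLinearGroup ι F) (w : Fin n₁ × Fin n₂ → F) :
    ι → F := (P : Matrix ι ι F) *ᵥ (w ∘ e)

theorem tvc_inj {e : ι ≃ Fin n₁ × Fin n₂} {P : Matrix.GeneralLinearGroup ι F}
    {w w' : Fin n₁ × Fin n₂ → F} (h : tvc e P w = tvc e P w') : w = w' := by
  have h1 := congrArg (fun v => ((P⁻¹ : Matrix.GeneralLinearGroup ι F) : Matrix ι ι F) *ᵥ v) h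
  simp only [tvc, Matrix.mulVec_mulVec, ← Units.val_mul, inv_mul_cancel, Units.val_one,
    Matrix.one_mulVec] at h1
  funext p
  have := congrFun h1 (e.symm p)
  simpa using this

theorem tvc_add (e : ι ≃ Fin n₁ × Fin n₂) (P : Matrix.GeneralLinearGroup ι F)
    (w w' : Fin n₁ × Fin n₂ → F) : tvc e P (w + w') = tvc e P w + tvc e P w' := by
  rw [tvc, tvc, tvc, ← Matrix.mulVec_add]; rfl

theorem tvc_smul (e : ι ≃ Fin n₁ × Fin n₂) (P : Matrix.GeneralLinearGroup ι F) (c : F)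
    (w : Fin n₁ × Fin n₂ → F) : tvc e P (c • w) = c • tvc e P w := by
  rw [tvc, tvc, ← Matrix.mulVec_smul]; rfl

theorem tau_std (e : ι ≃ Fin n₁ × Fin n₂) (P : Matrix.GeneralLinearGroup ι F) :
    Tau (fun (x : Fin n₁ → F) (y : Fin n₂ → F) => tvc e P (ptens x y)) := by
  refine ⟨fun x x' y => ?_, fun c x y => ?_, fun x y y' => ?_, fun c x y => ?_,
    fun a b c d h hc hd => ptens_inj (tvc_inj h) hc hd⟩
  · rw [← tvc_add]; congr 1; funext p; simp [ptens, add_mul]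
  · rw [← tvc_smul]; congr 1; funext p; simp [ptens, mul_assoc]
  · rw [← tvc_add]; congr 1; funext p; simp [ptens, mul_add]
  · rw [← tvc_smul]; congr 1; funext p; simp [ptens]; ring

theorem Tau.swap {V : Type*} [AddCommGroup V] [Module F V] {n₁ n₂ : ℕ}
    {τ : (Fin n₁ → F) → (Fin n₂ → F) → V} (h : Tau τ) : Tau (fun y x => τ x y) := by
  refine ⟨fun x x' y => h.add_right _ _ _, fun c x y => h.smul_right _ _ _,
    fun x y y' => h.add_left _ _ _, fun c x y => h.smul_left _ _ _, fun a b c d hab hc hd => ?_⟩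
  obtain ⟨ν, h1, h2⟩ := h.inj _ _ _ _ hab hd hc
  -- b = ν d, c = ν a
  have hν : ν ≠ 0 := by
    rintro rfl
    rw [zero_smul] at h2
    exact hc h2
  refine ⟨ν⁻¹, ?_, ?_⟩
  · rw [h2, smul_smul, inv_mul_cancel₀ hν, one_smul]
  · rw [h1, smul_smul, inv_mul_cancel₀ hν, one_smul]

theorem kron_mulVec (A : Matrix (Fin n₁) (Fin n₁) F) (B : Matrix (Fin n₂) (Fin n₂) F)
    (x : Fin n₁ → F) (y : Fin n₂ → F) : (A ⊗ₖ B) *ᵥ ptens x y = ptens (A *ᵥ x) (B *ᵥ y) := by
  funext p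
  obtain ⟨i, j⟩ := p
  simp only [Matrix.mulVec, dotProduct, ptens, Matrix.kroneckerMap_apply, Fintype.sum_prod_type,
    Finset.sum_mul_sum]
  refine Finset.sum_congr rfl fun k _ => Finset.sum_congr rfl fun l _ => ?_
  ring

theorem tens_act {e : ι ≃ Fin n₁ × Fin n₂} {P g : Matrix.GeneralLinearGroup ι F}
    (hg : g ∈ Cfsg.Geo.tensorProductSubgroup n₁ n₂ e P) :
    ∃ (A : Matrix.GeneralLinearGroup (Fin n₁) F) (B : Matrix.GeneralLinearGroup (Fin n₂) F),
      ∀ x y, (g : Matrix ι ι F) *ᵥ tvc e P (ptens x y) =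
        tvc e P (ptens ((A : Matrix (Fin n₁) (Fin n₁) F) *ᵥ x)
          ((B : Matrix (Fin n₂) (Fin n₂) F) *ᵥ y)) := by
  obtain ⟨_, ⟨k, ⟨A, B, hk⟩, rfl⟩, rfl⟩ := hg
  refine ⟨A, B, fun x y => ?_⟩
  rw [← kron_mulVec, ← hk]
  change ((P * (Cfsg.Geo.glReindex e.symm k) * P⁻¹ : Matrix.GeneralLinearGroup ι F) :
    Matrix ι ι F) *ᵥ tvc e P (ptens x y) = _
  rw [Units.val_mul, Units.val_mul, tvc, tvc, ← Matrix.mulVec_mulVec, ← Matrix.mulVec_mulVec,
    Matrix.mulVec_mulVec (M := ((P⁻¹ : Matrix.GeneralLinearGroup ι F) : Matrix ι ι F)),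
    ← Units.val_mul, inv_mul_cancel, Units.val_one, Matrix.one_mulVec]
  congr 1
  have h1 : ((Cfsg.Geo.glReindex e.symm k : Matrix.GeneralLinearGroup ι F) : Matrix ι ι F) =
      (k : Matrix (Fin n₁ × Fin n₂) (Fin n₁ × Fin n₂) F).submatrix e e := by
    rfl
  rw [h1, Matrix.submatrix_mulVec_equiv]
  congr 2
  funext p
  simp

theorem formOfGram_bilin {κ : Type} [Fintype κ] [DecidableEq κ] {f : (κ → F) → (κ → F) → F}
    (hf : Cfsg.Geo.IsBilinearForm f) (x y : κ → F) :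
    Cfsg.Geo.formOfGram id (Cfsg.Geo.gramMatrix f) x y = f x y := by
  have hsl : ∀ (s : Finset κ) (g : κ → κ → F) (v : κ → F), f (∑ a ∈ s, g a) v = ∑ a ∈ s, f (g a) v := by
    intro s g v
    induction s using Finset.induction_on with
    | empty =>
      have := hf.smul_left 0 0 v
      simpa using this
    | insert a s ha ih => rw [Finset.sum_insert ha, Finset.sum_insert ha, hf.add_left, ih]
  have hsr : ∀ (s : Finset κ) (g : κ → κ → F) (v : κ → F), f v (∑ a ∈ s, g a) = ∑ a ∈ s, f v (g a) := by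
    intro s g v
    induction s using Finset.induction_on with
    | empty =>
      have := hf.smul_right 0 v 0
      simpa using this
    | insert a s ha ih => rw [Finset.sum_insert ha, Finset.sum_insert ha, hf.add_right, ih]
  have hx : ∀ x : κ → F, x = ∑ a, x a • (Pi.single a 1 : κ → F) := by
    intro x
    funext b
    simp [Finset.sum_apply, Pi.single_apply]
  unfold Cfsg.Geo.formOfGram Cfsg.Geo.gramMatrix
  conv_rhs => rw [hx x, hsl]
  refine Finset.sum_congr rfl fun a _ => ?_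
  rw [hf.smul_left]
  conv_rhs => rw [hx y, hsr]
  rw [Finset.mul_sum]
  refine Finset.sum_congr rfl fun b _ => ?_
  rw [hf.smul_right, id]
  ring

theorem tens_form {f : (ι → F) → (ι → F) → F} {f₁ : (Fin n₁ → F) → (Fin n₁ → F) → F}
    {f₂ : (Fin n₂ → F) → (Fin n₂ → F) → F} {e : ι ≃ Fin n₁ × Fin n₂}
    {P : Matrix.GeneralLinearGroup ι F} (h₁ : Cfsg.Geo.IsBilinearForm f₁)
    (h₂ : Cfsg.Geo.IsBilinearForm f₂) (hT : Cfsg.Geo.IsTensorFormStructure id f f₁ f₂ e P) :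
    ∃ c : F, c ≠ 0 ∧ ∀ x y x' y', f (tvc e P (ptens x y)) (tvc e P (ptens x' y')) =
      c * (f₁ x x' * f₂ y y') := by
  obtain ⟨c, hc, h⟩ := hT
  refine ⟨c, hc, fun x y x' y' => ?_⟩
  rw [tvc, tvc, h, ← formOfGram_bilin h₁, ← formOfGram_bilin h₂]
  congr 1
  simp only [Cfsg.Geo.formOfGram, ptens, Matrix.kroneckerMap_apply, Fintype.sum_prod_type, id,
    Finset.sum_mul_sum]
  refine Finset.sum_congr rfl fun i _ => Finset.sum_congr rfl fun j _ => ?_
  rw [Finset.sum_comm]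
  rw [Finset.sum_comm]
  refine Finset.sum_congr rfl fun k _ => Finset.sum_congr rfl fun l _ => ?_
  ring

end

/-! ### The three-dimensional factor -/

section three

variable {F : Type*} [Field F] [Fintype F]

/-- The quadratic form `f x x` of a bilinear form. -/
noncomputable def qOfBil {κ : Type} [Fintype κ] [DecidableEq κ] {f : (κ → F) → (κ → F) → F}
    (hf : Cfsg.Geo.IsBilinearForm f) : QuadraticForm F (κ → F) :=
  LinearMap.BilinMap.toQuadraticMap (LinearMap.mk₂ F f hf.add_left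
    (fun c x y => hf.smul_left c x y) hf.add_right (fun c x y => hf.smul_right c x y))

theorem qOfBil_apply {κ : Type} [Fintype κ] [DecidableEq κ] {f : (κ → F) → (κ → F) → F}
    (hf : Cfsg.Geo.IsBilinearForm f) (x : κ → F) : qOfBil hf x = f x x := rfl

theorem qOfBil_polar {κ : Type} [Fintype κ] [DecidableEq κ] {f : (κ → F) → (κ → F) → F}
    (hf : Cfsg.Geo.IsBilinearForm f) (hs : ∀ u v, f u v = f v u) (x y : κ → F) :
    polar (qOfBil hf) x y = 2 * f x y := by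
  rw [QuadraticMap.polar, qOfBil_apply, qOfBil_apply, qOfBil_apply, hf.add_left, hf.add_right,
    hf.add_right, hs y x]
  ring

/-- Frame of a nondegenerate symmetric form in dimension three. -/
structure Fr3 (f : (Fin 3 → F) → (Fin 3 → F) → F) (u : Fin 3 → Fin 3 → F) (ε : F) : Prop where
  eps : ε ≠ 0
  self : ∀ k, f (u k) (u k) = ε
  orth : ∀ k l, k ≠ l → f (u k) (u l) = 0
  span : ∀ x, ∃ a b c : F, x = a • u 0 + b • u 1 + c • u 2
  norm : ∀ x, f x x = ε → ∃ k, x = u k ∨ x = - u k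

theorem exists_fr3 (hq : Fintype.card F = 3) {f : (Fin 3 → F) → (Fin 3 → F) → F}
    (hf : Cfsg.Geo.IsSymmetricForm f) : ∃ u ε, Fr3 f u ε := by
  have h2 : (2 : F) ≠ 0 := two_ne_zero_of_odd (by rw [hq]; decide)
  set q := qOfBil hf.bilinear with hqdef
  have hpol : ∀ x y, polar q x y = 2 * f x y := qOfBil_polar hf.bilinear hf.symm
  have hE : (⊤ : Submodule F (Fin 3 → F)) ⊓ perp q ⊤ = ⊥ := by
    rw [eq_bot_iff]
    rintro x ⟨-, hx⟩
    by_contra hx0
    obtain ⟨⟨y, hy⟩, -⟩ := hf.nondegenerate x (fun h => hx0 (by rw [h]; rfl))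
    have : polar q y x = 0 := hx y trivial
    rw [hpol] at this
    exact hy ((mul_eq_zero.1 this).resolve_left h2)
  obtain ⟨ε, u, h⟩ := exists_o33 hq hE (by rw [finrank_top, Module.finrank_fin_fun])
  refine ⟨u, ε, h.eps, h.q, fun k l hkl => ?_, fun x => h.span x trivial,
    fun x hx => h.norm hq trivial hx⟩
  have := h.orth k l hkl
  rw [hpol] at this
  exact (mul_eq_zero.1 this).resolve_left h2

theorem Fr3.ne_zero {f : (Fin 3 → F) → (Fin 3 → F) → F} {u : Fin 3 → Fin 3 → F} {ε : F}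
    (hf : Cfsg.Geo.IsBilinearForm f) (h : Fr3 f u ε) (k : Fin 3) : u k ≠ 0 := by
  intro h0
  have h1 := h.self k
  rw [h0] at h1
  have h2 := hf.smul_left 0 0 0
  rw [zero_smul, zero_mul] at h2
  exact h.eps (by rw [← h1, h2])

/-- A similarity permutes the lines of the frame. -/
theorem Fr3.perm (hq : Fintype.card F = 3) {f : (Fin 3 → F) → (Fin 3 → F) → F}
    (hf : Cfsg.Geo.IsSymmetricForm f) {u : Fin 3 → Fin 3 → F} {ε : F} (h : Fr3 f u ε)
    (A : Matrix (Fin 3) (Fin 3) F) {κ : F} (hκ : κ ≠ 0)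
    (hA : ∀ x y, f (A *ᵥ x) (A *ᵥ y) = κ * f x y) (k : Fin 3) :
    ∃ l, A *ᵥ u k = u l ∨ A *ᵥ u k = - u l := by
  have hb := hf.bilinear
  have hsr : ∀ a b c, f (u a) (b • u c) = b * f (u a) (u c) := fun a b c => hb.smul_right _ _ _
  choose a b c habc using fun k => h.span (A *ᵥ u k)
  set M : Matrix (Fin 3) (Fin 3) F := fun k => ![a k, b k, c k] with hM
  have h01 := h.orth 0 1 (by decide)
  have h02 := h.orth 0 2 (by decide)
  have h12 := h.orth 1 2 (by decide)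
  have h10 := h.orth 1 0 (by decide)
  have h20 := h.orth 2 0 (by decide)
  have h21 := h.orth 2 1 (by decide)
  have hdot : ∀ k l, κ * f (u k) (u l) = ε * (a k * a l + b k * b l + c k * c l) := by
    intro k l
    rw [← hA, habc k, habc l]
    simp only [hb.add_left, hb.add_right, hb.smul_left, hb.smul_right, h.self, h01, h02, h12, h10,
      h20, h21]
    ring
  have hMM : M * Mᵀ = κ • (1 : Matrix (Fin 3) (Fin 3) F) := by
    ext k l
    rw [Matrix.mul_apply, Fin.sum_univ_three]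
    simp only [hM, Matrix.transpose_apply, Matrix.smul_apply, smul_eq_mul]
    change a k * a l + b k * b l + c k * c l = _
    apply mul_left_cancel₀ h.eps
    rw [← hdot]
    by_cases hkl : k = l
    · subst hkl; rw [h.self, Matrix.one_apply_eq]; ring
    · rw [h.orth k l hkl, Matrix.one_apply_ne hkl]; ring
  have hdet := congrArg Matrix.det hMM
  rw [Matrix.det_mul, Matrix.det_transpose, Matrix.det_smul, Matrix.det_one, mul_one,
    Fintype.card_fin] at hdet
  have hκ1 : κ = 1 := by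
    rcases f3_pm hq hκ with h1 | h1
    · exact h1
    · exfalso
      rw [h1] at hdet
      have hd0 : M.det ≠ 0 := by
        intro h0; rw [h0, zero_mul] at hdet
        exact pow_ne_zero 3 (neg_ne_zero.2 one_ne_zero) hdet.symm
      rw [f3_sq hq hd0] at hdet
      have h3 := f3_three hq
      exact one_ne_zero (α := F) (by linear_combination h3 - hdet)
  exact h.norm _ (by rw [hA, hκ1, h.self, one_mul])

end three

/-! ### Abstract comparison -/

section

variable {F : Type*} [Field F] [Fintype F] {V : Type*} [AddCommGroup V] [Module F V] {n : ℕ}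
  {τ : (Fin 3 → F) → (Fin n → F) → V} {Φ : V → V → F} {f₃ : (Fin 3 → F) → (Fin 3 → F) → F}
  {fn : (Fin n → F) → (Fin n → F) → F} {u : Fin 3 → Fin 3 → F} {ε c : F}

/-- The union of the subspaces `u k ⊗ F^n`. -/
def TS (τ : (Fin 3 → F) → (Fin n → F) → V) (u : Fin 3 → Fin 3 → F) : Set V :=
  {v | ∃ k y, v = τ (u k) y}

theorem factor_sim (hc : c ≠ 0) (hΦ : ∀ x y x' y', Φ (τ x y) (τ x' y') = c * (f₃ x x' * fn y y'))
    (hn : ∃ y y', fn y y' ≠ 0) (hf₃ : ∃ x x', f₃ x x' ≠ 0) {g : V → V}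
    (hg : ∀ a b, Φ (g a) (g b) = Φ a b) {A : (Fin 3 → F) → (Fin 3 → F)}
    {B : (Fin n → F) → (Fin n → F)} (hAB : ∀ x y, g (τ x y) = τ (A x) (B y)) :
    ∃ κ : F, κ ≠ 0 ∧ ∀ x x', f₃ (A x) (A x') = κ * f₃ x x' := by
  obtain ⟨y, y', hy⟩ := hn
  have h1 : ∀ x x', f₃ (A x) (A x') * fn (B y) (B y') = f₃ x x' * fn y y' := by
    intro x x'
    have := hg (τ x y) (τ x' y')
    rw [hAB, hAB, hΦ, hΦ] at this
    exact mul_left_cancel₀ hc this
  obtain ⟨x, x', hx⟩ := hf₃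
  have hB : fn (B y) (B y') ≠ 0 := by
    intro h0
    have := h1 x x'
    rw [h0, mul_zero] at this
    exact mul_ne_zero hx hy this.symm
  refine ⟨fn y y' / fn (B y) (B y'), div_ne_zero hy hB, fun x x' => ?_⟩
  have := h1 x x'
  field_simp
  linear_combination this

theorem pres_TS (hq : Fintype.card F = 3) (hτ : Tau τ) (hf : Cfsg.Geo.IsSymmetricForm f₃)
    (hu : Fr3 f₃ u ε) (hc : c ≠ 0)
    (hΦ : ∀ x y x' y', Φ (τ x y) (τ x' y') = c * (f₃ x x' * fn y y'))
    (hn : ∃ y y', fn y y' ≠ 0) {g : V → V}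
    (hg : ∀ a b, Φ (g a) (g b) = Φ a b) {A : Matrix (Fin 3) (Fin 3) F}
    {B : (Fin n → F) → (Fin n → F)} (hAB : ∀ x y, g (τ x y) = τ (A *ᵥ x) (B y)) {v : V}
    (hv : v ∈ TS τ u) : g v ∈ TS τ u := by
  obtain ⟨κ, hκ, h1⟩ := factor_sim (A := fun x => A *ᵥ x) hc hΦ hn
    ⟨u 0, u 0, by rw [hu.self]; exact hu.eps⟩ hg hAB
  obtain ⟨k, y, rfl⟩ := hv
  obtain ⟨l, hl⟩ := hu.perm hq hf A hκ h1 k
  rcases hl with hl | hl
  · exact ⟨l, B y, by rw [hAB, hl]⟩
  · refine ⟨l, -B y, ?_⟩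
    rw [hAB, hl, ← neg_one_smul F (u l), hτ.smul_left, ← neg_one_smul F (B y), hτ.smul_right]

/-- An element of the tensor product group that fixes `u 1 ⊗ F^n` pointwise and a nonzero vector of
`u 0 ⊗ F^n` fixes `u 0 ⊗ F^n` pointwise. -/
theorem rigid (hτ : Tau τ) (hf : Cfsg.Geo.IsBilinearForm f₃) (hu : Fr3 f₃ u ε) {g : V → V}
    {A : (Fin 3 → F) → (Fin 3 → F)} {B : (Fin n → F) → (Fin n → F)}
    (hAB : ∀ x y, g (τ x y) = τ (A x) (B y)) (h1 : ∀ y, g (τ (u 1) y) = τ (u 1) y)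
    {a : Fin n → F} (ha : a ≠ 0) (ha' : g (τ (u 0) a) = τ (u 0) a) (y : Fin n → F) :
    g (τ (u 0) y) = τ (u 0) y := by
  have hu0 := hu.ne_zero hf 0
  have hu1 := hu.ne_zero hf 1
  by_cases hy : y = 0
  · subst hy
    have h0 : τ (u 0) 0 = τ (u 1) 0 := by
      have e1 := hτ.smul_right 0 (u 0) 0
      have e2 := hτ.smul_right 0 (u 1) 0
      rw [zero_smul, zero_smul] at e1 e2
      rw [e1, e2]
    rw [h0, h1]
  have e1 : ∀ y, y ≠ 0 → ∃ ν : F, A (u 1) = ν • u 1 ∧ y = ν • B y := by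
    intro y hy
    exact hτ.inj _ _ _ _ (by rw [← hAB, h1]) hu1 hy
  obtain ⟨ν, hν1, hν2⟩ := e1 y hy
  obtain ⟨ν', hν1', hν2'⟩ := e1 a ha
  obtain ⟨μ, hμ1, hμ2⟩ := hτ.inj _ _ _ _ (by rw [← hAB, ha']) hu0 ha
  have hνν : ν = ν' := by
    have : (ν - ν') • u 1 = 0 := by rw [sub_smul, ← hν1, ← hν1', sub_self]
    exact sub_eq_zero.1 ((smul_eq_zero.1 this).resolve_right hu1)
  have hBa : B a ≠ 0 := by
    intro h; rw [h, smul_zero] at hμ2; exact ha hμ2
  have hμν : μ = ν' := by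
    have : (μ - ν') • B a = 0 := by rw [sub_smul, ← hμ2, ← hν2', sub_self]
    exact sub_eq_zero.1 ((smul_eq_zero.1 this).resolve_right hBa)
  rw [hAB, hμ1, hμν, ← hνν, hτ.smul_left, ← hτ.smul_right, ← hν2]

/-- Sums of nonzero vectors of the first two subspaces are not in the union. -/
theorem add_not_mem_TS (hu : Fr3 f₃ u ε) (hc : c ≠ 0)
    (hΦ : ∀ x y x' y', Φ (τ x y) (τ x' y') = c * (f₃ x x' * fn y y'))
    (hΦa : ∀ a b d, Φ (a + b) d = Φ a d + Φ b d)
    (hn : ∀ y, y ≠ 0 → ∃ y', fn y y' ≠ 0) {y y' : Fin n → F} (hy : y ≠ 0) (hy' : y' ≠ 0) :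
    τ (u 0) y + τ (u 1) y' ∉ TS τ u := by
  rintro ⟨k, z, hz⟩
  have hmul : ∀ k w, Φ (τ (u 0) y + τ (u 1) y') (τ (u k) w) =
      c * (f₃ (u 0) (u k) * fn y w) + c * (f₃ (u 1) (u k) * fn y' w) := by
    intro k w; rw [hΦa, hΦ, hΦ]
  by_cases hk : k = 0
  · obtain ⟨w, hw⟩ := hn y' hy'
    have h1 := hmul 1 w
    rw [hz, hΦ, hu.orth k 1 (by rw [hk]; decide), hu.self, hu.orth 0 1 (by decide)] at h1
    simp only [zero_mul, mul_zero, zero_add] at h1
    exact mul_ne_zero hc (mul_ne_zero hu.eps hw) h1.symm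
  · obtain ⟨w, hw⟩ := hn y hy
    have h1 := hmul 0 w
    rw [hz, hΦ, hu.orth k 0 hk, hu.self, hu.orth 1 0 (by decide)] at h1
    simp only [zero_mul, mul_zero, add_zero] at h1
    exact mul_ne_zero hc (mul_ne_zero hu.eps hw) h1.symm

end

end Cfsg.Agent.OMax
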