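import Cfsg.Agent.OMax.PlaneQ3

/-!
Three-dimensional nondegenerate spaces over the field with three elements; the stabiliser of a
decomposition into such spaces is not maximal.
-/

set_option autoImplicit false
set_option linter.unusedSectionVars false

namespace Cfsg.Agent.OMax

open QuadraticMap Cfsg.Agent.Orth

section field

variable {F : Type*} [Field F] [Fintype F]

theorem f3_sq (hq : Fintype.card F = 3) {x : F} (hx : x ≠ 0) : x * x = 1 := by
  have := FiniteField.pow_card_sub_one_eq_one x hx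
  rw [hq] at this
  rw [← pow_two]; exact this

theorem f3_pm (hq : Fintype.card F = 3) {x : F} (hx : x ≠ 0) : x = 1 ∨ x = -1 :=
  mul_self_eq_one_iff.1 (f3_sq hq hx)

theorem f3_three (hq : Fintype.card F = 3) : (3 : F) = 0 := by
  have := Nat.cast_card_eq_zero F
  rw [hq] at this
  exact_mod_cast this

theorem f3_sq_sum (hq : Fintype.card F = 3) {a b c : F} (h : a * a + b * b + c * c = 1) :
    (a ≠ 0 ∧ b = 0 ∧ c = 0) ∨ (a = 0 ∧ b ≠ 0 ∧ c = 0) ∨ (a = 0 ∧ b = 0 ∧ c ≠ 0) := by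
  have h3 := f3_three hq
  by_cases ha : a = 0 <;> by_cases hb : b = 0 <;> by_cases hc : c = 0
  · exfalso; subst ha hb hc; simp at h
  · exact Or.inr (Or.inr ⟨ha, hb, hc⟩)
  · exact Or.inr (Or.inl ⟨ha, hb, hc⟩)
  · exfalso
    have h1 := f3_sq hq hb
    have h2 := f3_sq hq hc
    rw [ha, h1, h2] at h
    exact one_ne_zero (α := F) (by linear_combination h)
  · exact Or.inl ⟨ha, hb, hc⟩
  · exfalso
    have h1 := f3_sq hq ha
    have h2 := f3_sq hq hc
    rw [hb, h1, h2] at h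
    exact one_ne_zero (α := F) (by linear_combination h)
  · exfalso
    have h1 := f3_sq hq ha
    have h2 := f3_sq hq hb
    rw [hc, h1, h2] at h
    exact one_ne_zero (α := F) (by linear_combination h)
  · exfalso
    have h1 := f3_sq hq ha
    have h2 := f3_sq hq hb
    have h4 := f3_sq hq hc
    rw [h1, h2, h4] at h
    exact one_ne_zero (α := F) (by linear_combination h3 - h)

end field

section

variable {F : Type*} [Field F] [Fintype F] {V : Type*} [AddCommGroup V] [Module F V]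
  {Q : QuadraticForm F V} {E : Submodule F V} {ε : F} {e : Fin 3 → V}

/-- An orthogonal basis of equal norms. -/
structure O33 (Q : QuadraticForm F V) (E : Submodule F V) (ε : F) (e : Fin 3 → V) : Prop where
  eps : ε ≠ 0
  mem : ∀ k, e k ∈ E
  q : ∀ k, Q (e k) = ε
  orth : ∀ k l, k ≠ l → polar Q (e k) (e l) = 0
  span : ∀ x ∈ E, ∃ a b c : F, x = a • e 0 + b • e 1 + c • e 2

theorem O33.q_comb (h : O33 Q E ε e) (a b c : F) :
    Q (a • e 0 + b • e 1 + c • e 2) = ε * (a * a + b * b + c * c) := by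
  have h01 := h.orth 0 1 (by decide)
  have h02 := h.orth 0 2 (by decide)
  have h12 := h.orth 1 2 (by decide)
  rw [qadd, qadd, pal, qsmul, qsmul, qsmul, psl, psr, psl, psr, psl, psr, h.q, h.q, h.q, h01, h02,
    h12]
  ring

theorem O33.norm (hq : Fintype.card F = 3) (h : O33 Q E ε e) {x : V} (hx : x ∈ E)
    (hqx : Q x = ε) : ∃ k, x = e k ∨ x = -e k := by
  obtain ⟨a, b, c, rfl⟩ := h.span x hx
  rw [h.q_comb] at hqx
  have h1 : a * a + b * b + c * c = 1 := mul_left_cancel₀ h.eps (by rw [hqx, mul_one])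
  rcases f3_sq_sum hq h1 with ⟨h1, h2, h3⟩ | ⟨h1, h2, h3⟩ | ⟨h1, h2, h3⟩
  · refine ⟨0, ?_⟩
    rcases f3_pm hq h1 with h4 | h4
    · left; rw [h4, h2, h3]; simp
    · right; rw [h4, h2, h3]; simp
  · refine ⟨1, ?_⟩
    rcases f3_pm hq h2 with h4 | h4
    · left; rw [h4, h1, h3]; simp
    · right; rw [h4, h1, h3]; simp
  · refine ⟨2, ?_⟩
    rcases f3_pm hq h3 with h4 | h4
    · left; rw [h4, h1, h2]; simp
    · right; rw [h4, h1, h2]; simp

theorem O33.pair (hq : Fintype.card F = 3) (h : O33 Q E ε e) {x y : V} (hx : x ∈ E) (hy : y ∈ E)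
    (hqx : Q x = ε) (hqy : Q y = ε) : x = y ∨ x = -y ∨ polar Q x y = 0 := by
  obtain ⟨k, hk⟩ := h.norm hq hx hqx
  obtain ⟨l, hl⟩ := h.norm hq hy hqy
  by_cases hkl : k = l
  · subst hkl
    rcases hk with rfl | rfl <;> rcases hl with rfl | rfl <;> simp
  · right; right
    have := h.orth k l hkl
    rcases hk with rfl | rfl <;> rcases hl with rfl | rfl <;>
      simp [polar_neg_left, polar_neg_right, this]

variable [FiniteDimensional F V]

theorem span_of_orth (h2 : (2 : F) ≠ 0) (h3 : Module.finrank F E = 3) {u v w : V} (hu : u ∈ E)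
    (hv : v ∈ E) (hw : w ∈ E) (hqu : Q u ≠ 0) (hqv : Q v ≠ 0) (hqw : Q w ≠ 0)
    (huv : polar Q u v = 0) (huw : polar Q u w = 0) (hvw : polar Q v w = 0) :
    ∀ x ∈ E, ∃ a b c : F, x = a • u + b • v + c • w := by
  have hvu : polar Q v u = 0 := by rw [pc, huv]
  have hwu : polar Q w u = 0 := by rw [pc, huw]
  have hwv : polar Q w v = 0 := by rw [pc, hvw]
  have hli : LinearIndependent F ![u, v, w] := by
    rw [Fintype.linearIndependent_iff]
    intro g hg
    rw [Fin.sum_univ_three] at hg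
    change g 0 • u + g 1 • v + g 2 • w = 0 at hg
    have e1 : polar Q (g 0 • u + g 1 • v + g 2 • w) u = 0 := by
      rw [hg]; exact polar_zero_left Q u
    have e2 : polar Q (g 0 • u + g 1 • v + g 2 • w) v = 0 := by
      rw [hg]; exact polar_zero_left Q v
    have e3 : polar Q (g 0 • u + g 1 • v + g 2 • w) w = 0 := by
      rw [hg]; exact polar_zero_left Q w
    rw [pal, pal, psl, psl, psl, pself, hvu, hwu] at e1
    rw [pal, pal, psl, psl, psl, pself, huv, hwv] at e2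
    rw [pal, pal, psl, psl, psl, pself, huw, hvw] at e3
    simp only [mul_zero, add_zero, zero_add, mul_eq_zero, h2, hqu, hqv, hqw, or_false] at e1 e2 e3
    intro i
    fin_cases i
    · exact e1
    · exact e2
    · exact e3
  have hsp : Submodule.span F (Set.range ![u, v, w]) = E := by
    refine Submodule.eq_of_le_of_finrank_eq ?_ ?_
    · rw [Submodule.span_le]
      rintro _ ⟨i, rfl⟩
      fin_cases i
      · exact hu
      · exact hv
      · exact hw
    · rw [finrank_span_eq_card hli, h3]; rfl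
  intro x hx
  rw [← hsp, Submodule.mem_span_range_iff_exists_fun] at hx
  obtain ⟨c, hc⟩ := hx
  refine ⟨c 0, c 1, c 2, ?_⟩
  rw [← hc, Fin.sum_univ_three]
  rfl

theorem exists_o33 (hq : Fintype.card F = 3) (hE : E ⊓ perp Q E = ⊥)
    (h3 : Module.finrank F E = 3) : ∃ (ε : F) (e : Fin 3 → V), O33 Q E ε e := by
  have h2 : (2 : F) ≠ 0 := two_ne_zero_of_odd (by rw [hq]; decide)
  obtain ⟨u, hu, hqu⟩ := sub_q_eq (Q := Q) hE (by omega) (1 : F)
  have hqu0 : Q u ≠ 0 := by rw [hqu]; exact one_ne_zero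
  obtain ⟨hE1, hd1⟩ := sub_perp_nonsing h2 hE hu hqu0
  set E1 := E ⊓ perp Q (Submodule.span F {u}) with hE1def
  obtain ⟨v, hv, hqv⟩ := sub_q_eq (Q := Q) hE1 (by omega) (1 : F)
  have hqv0 : Q v ≠ 0 := by rw [hqv]; exact one_ne_zero
  obtain ⟨hE2, hd2⟩ := sub_perp_nonsing h2 hE1 hv hqv0
  set E2 := E1 ⊓ perp Q (Submodule.span F {v}) with hE2def
  have hpos : 0 < Module.finrank F E2 := by omega
  obtain ⟨w, hw0⟩ := (Module.finrank_pos_iff_exists_ne_zero (R := F) (M := E2)).1 hpos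
  obtain ⟨w, hw⟩ := w
  have hw0' : w ≠ 0 := fun h => hw0 (Subtype.ext h)
  have huv : polar Q u v = 0 := hv.2 u (Submodule.mem_span_singleton_self u)
  have huw : polar Q u w = 0 := hw.1.2 u (Submodule.mem_span_singleton_self u)
  have hvw : polar Q v w = 0 := hw.2 v (Submodule.mem_span_singleton_self v)
  have hvu : polar Q v u = 0 := by rw [pc, huv]
  have hwu : polar Q w u = 0 := by rw [pc, huw]
  have hwv : polar Q w v = 0 := by rw [pc, hvw]
  have hqw0 : Q w ≠ 0 := by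
    intro h
    have : w ∈ E2 ⊓ perp Q E2 := by
      refine ⟨hw, fun x hx => ?_⟩
      change polar Q x w = 0
      have hd : Module.finrank F E2 = 1 := by omega
      obtain ⟨c, hc⟩ := (finrank_eq_one_iff_of_nonzero' (⟨w, hw⟩ : E2) hw0).1 hd ⟨x, hx⟩
      have : x = c • w := (congrArg Subtype.val hc).symm
      rw [this, psl, pself, h]; ring
    rw [hE2] at this
    exact hw0' this
  rcases f3_pm hq hqw0 with h | h
  · refine ⟨1, ![u, v, w], one_ne_zero, ?_, ?_, ?_, ?_⟩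
    · intro k; fin_cases k
      · exact hu
      · exact hv.1
      · exact hw.1.1
    · intro k; fin_cases k
      · exact hqu
      · exact hqv
      · exact h
    · intro k l hkl
      fin_cases k <;> fin_cases l <;> first | exact absurd rfl hkl | assumption
    · exact span_of_orth h2 h3 hu hv.1 hw.1.1 hqu0 hqv0 hqw0 huv huw hvw
  · have h3' := f3_three hq
    have a1 : Q (u + v) = -1 := by rw [qadd, hqu, hqv, huv]; linear_combination h3'
    have a2 : Q (u - v) = -1 := by rw [qsub, hqu, hqv, huv]; linear_combination h3'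
    have a3 : polar Q w (u + v) = 0 := by rw [par, hwu, hwv, add_zero]
    have a4 : polar Q w (u - v) = 0 := by rw [pdr, hwu, hwv, sub_zero]
    have a5 : polar Q (u + v) (u - v) = 0 := by
      rw [pal, pdr, pdr, pself, pself, huv, hvu, hqu, hqv]; ring
    have a6 : polar Q (u + v) w = 0 := by rw [pc, a3]
    have a7 : polar Q (u - v) w = 0 := by rw [pc, a4]
    have a8 : polar Q (u - v) (u + v) = 0 := by rw [pc, a5]
    refine ⟨-1, ![w, u + v, u - v], neg_ne_zero.2 one_ne_zero, ?_, ?_, ?_, ?_⟩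
    · intro k; fin_cases k
      · exact hw.1.1
      · exact E.add_mem hu hv.1
      · exact E.sub_mem hu hv.1
    · intro k; fin_cases k
      · exact h
      · exact a1
      · exact a2
    · intro k l hkl
      fin_cases k <;> fin_cases l <;> first | exact absurd rfl hkl | assumption
    · have b1 : Q (u + v) ≠ 0 := by rw [a1]; exact neg_ne_zero.2 one_ne_zero
      have b2 : Q (u - v) ≠ 0 := by rw [a2]; exact neg_ne_zero.2 one_ne_zero
      exact span_of_orth h2 h3 hw.1.1 (E.add_mem hu hv.1) (E.sub_mem hu hv.1) hqw0 b1 b2 a3 a4 a5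

/-- Transport along an isometry of subspaces. -/
theorem O33.map {E E' : Submodule F V} (h : O33 Q E ε e) (φ : E ≃ₗ[F] E')
    (hφ : ∀ x : E, Q (φ x : V) = Q (x : V)) :
    O33 Q E' ε (fun k => (φ ⟨e k, h.mem k⟩ : V)) := by
  have hpol : ∀ x y : E, polar Q (φ x : V) (φ y : V) = polar Q (x : V) (y : V) := by
    intro x y
    have := hφ (x + y)
    rw [map_add] at this
    simp only [QuadraticMap.polar]
    rw [← Submodule.coe_add, this, hφ, hφ]; rfl
  refine ⟨h.eps, fun k => (φ _).2, fun k => ?_, fun k l hkl => ?_, fun x hx => ?_⟩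
  · rw [hφ]; exact h.q k
  · rw [hpol]; exact h.orth k l hkl
  · obtain ⟨a, b, c, habc⟩ := h.span (φ.symm ⟨x, hx⟩ : V) (φ.symm ⟨x, hx⟩).2
    refine ⟨a, b, c, ?_⟩
    have h1 : φ.symm ⟨x, hx⟩ = a • ⟨e 0, h.mem 0⟩ + b • ⟨e 1, h.mem 1⟩ + c • ⟨e 2, h.mem 2⟩ :=
      Subtype.ext habc
    have h2 := congrArg φ h1
    rw [LinearEquiv.apply_symm_apply, map_add, map_add, map_smul, map_smul, map_smul] at h2
    exact congrArg Subtype.val h2

/-- The root-like set of vectors of norm `ε` in the members of the decomposition. -/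
def Roots (Q : QuadraticForm F V) {t : ℕ} (D : Fin t → Submodule F V) (ε : F) : Set V :=
  {v | ∃ i, v ∈ D i ∧ Q v = ε}

theorem roots_refl (hq : Fintype.card F = 3) {t : ℕ} {D : Fin t → Submodule F V}
    (hD : IsFrame Q 3 D) (he : ∀ i, ∃ e, O33 Q (D i) ε e) {i j : Fin t} (hij : i ≠ j) {a b : V}
    (ha : a ∈ D i) (hqa : Q a = ε) (hb : b ∈ D j) (hqb : Q b = ε) (hab : Q (b - a) ≠ 0) {v : V}
    (hv : v ∈ Roots Q D ε) : (refl Q (b - a) hab : V ≃ₗ[F] V) v ∈ Roots Q D ε := by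
  obtain ⟨l, hl, hqv⟩ := hv
  have hsw : (refl Q (b - a) hab : V ≃ₗ[F] V) a = b := refl_sub_apply (by rw [hqa, hqb]) hab
  have hsw' : (refl Q (b - a) hab : V ≃ₗ[F] V) b = a := by
    have := congrArg (fun g : OGrp Q => (g : V ≃ₗ[F] V) a) (refl_mul_self hab)
    have h4 : (refl Q (b - a) hab : V ≃ₗ[F] V) ((refl Q (b - a) hab : V ≃ₗ[F] V) a) = a := this
    rwa [hsw] at h4
  have hfix : polar Q v (b - a) = 0 → (refl Q (b - a) hab : V ≃ₗ[F] V) v ∈ Roots Q D ε := by
    intro h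
    rw [refl_apply_of_ortho hab h]
    exact ⟨l, hl, hqv⟩
  by_cases hli : l = i
  · subst hli
    obtain ⟨e, he⟩ := he l
    rcases he.pair hq hl ha hqv hqa with rfl | rfl | h
    · rw [hsw]; exact ⟨j, hb, hqb⟩
    · rw [map_neg, hsw]; exact ⟨j, (D j).neg_mem hb, by rw [QuadraticMap.map_neg, hqb]⟩
    · apply hfix
      rw [pdr, h, hD.orth l j hij _ hl _ hb, sub_zero]
  · by_cases hlj : l = j
    · subst hlj
      obtain ⟨e, he⟩ := he l
      rcases he.pair hq hl hb hqv hqb with rfl | rfl | h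
      · rw [hsw']; exact ⟨i, ha, hqa⟩
      · rw [map_neg, hsw']; exact ⟨i, (D i).neg_mem ha, by rw [QuadraticMap.map_neg, hqa]⟩
      · apply hfix
        rw [pdr, h, hD.orth l i hli _ hl _ ha, sub_zero]
    · apply hfix
      rw [pdr, hD.orth l j hlj _ hl _ hb, hD.orth l i hli _ hl _ ha, sub_zero]

/-- The swap of two pairs of roots. -/
theorem roots_swap (hq : Fintype.card F = 3) (hQ : (polarBilin Q).Nondegenerate) {t : ℕ}
    {D : Fin t → Submodule F V} (hD : IsFrame Q 3 D) (he : ∀ i, ∃ e, O33 Q (D i) ε e)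
    {i j : Fin t} (hij : i ≠ j) :
    ∃ g ∈ commutator (OGrp Q), (∀ v, v ∈ Roots Q D ε ↔ (g : V ≃ₗ[F] V) v ∈ Roots Q D ε) ∧
      (∃ a ∈ D i, (g : V ≃ₗ[F] V) a ∈ D j ∧ a ≠ 0) ∧
      (∃ a ∈ D i, (g : V ≃ₗ[F] V) a ∈ D i ∧ a ≠ 0) := by
  have h2 : (2 : F) ≠ 0 := two_ne_zero_of_odd (by rw [hq]; decide)
  obtain ⟨e, hei⟩ := he i
  obtain ⟨f, hfj⟩ := he j
  have hef : ∀ k l, polar Q (e k) (f l) = 0 := fun k l => hD.orth i j hij _ (hei.mem k) _ (hfj.mem l)
  have hfe : ∀ k l, polar Q (f k) (e l) = 0 := fun k l => by rw [pc, hef]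
  have hn : ∀ k, Q (f k - e k) = 2 * ε := by
    intro k
    rw [qsub, hei.q, hfj.q, hfe]; ring
  have hn0 : ∀ k, Q (f k - e k) ≠ 0 := fun k => by
    rw [hn]; exact mul_ne_zero h2 hei.eps
  have hperp : ∀ k l, k ≠ l → polar Q (e k) (f l - e l) = 0 := by
    intro k l hkl
    rw [pdr, hef, hei.orth k l hkl, sub_zero]
  have hsw : ∀ k, (refl Q (f k - e k) (hn0 k) : V ≃ₗ[F] V) (e k) = f k := fun k =>
    refl_sub_apply (by rw [hei.q, hfj.q]) (hn0 k)
  have hfk : ∀ k l, k ≠ l → polar Q (f k) (f l - e l) = 0 := by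
    intro k l hkl
    rw [pdr, hfe, hfj.orth k l hkl, sub_zero]
  have hpres : ∀ k v, v ∈ Roots Q D ε → (refl Q (f k - e k) (hn0 k) : V ≃ₗ[F] V) v ∈ Roots Q D ε :=
    fun k v hv => roots_refl hq hD he hij (hei.mem k) (hei.q k) (hfj.mem k) (hfj.q k) (hn0 k) hv
  have hpres' : ∀ k v, v ∈ Roots Q D ε ↔
      (refl Q (f k - e k) (hn0 k) : V ≃ₗ[F] V) v ∈ Roots Q D ε := by
    intro k v
    refine ⟨hpres k v, fun h => ?_⟩
    have h1 := hpres k _ h
    have h3 := congrArg (fun g : OGrp Q => (g : V ≃ₗ[F] V) v) (refl_mul_self (hn0 k))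
    have h4 : (refl Q (f k - e k) (hn0 k) : V ≃ₗ[F] V)
      ((refl Q (f k - e k) (hn0 k) : V ≃ₗ[F] V) v) = v := h3
    rwa [h4] at h1
  have he0 : ∀ k, e k ≠ 0 := by
    intro k h
    have := hei.q k
    rw [h, QuadraticMap.map_zero] at this
    exact hei.eps this.symm
  refine ⟨refl Q (f 0 - e 0) (hn0 0) * refl Q (f 1 - e 1) (hn0 1), ?_, fun v => ?_,
    ⟨e 0, hei.mem 0, ?_, he0 0⟩, ⟨e 2, hei.mem 2, ?_, he0 2⟩⟩
  · have := reflProd_mem_commutator hQ (l := [⟨f 0 - e 0, hn0 0⟩, ⟨f 1 - e 1, hn0 1⟩]) ⟨1, rfl⟩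
      (by rw [nrm_cons, nrm_cons, nrm_nil, mul_one]; exact ⟨2 * ε, by rw [hn, hn]⟩)
    rwa [reflProd_cons, reflProd_cons, reflProd_nil, mul_one] at this
  · rw [coe_mul_apply, ← hpres' 0, ← hpres' 1]
  · rw [coe_mul_apply, refl_apply_of_ortho (hn0 1) (hperp 0 1 (by decide)), hsw]
    exact hfj.mem 0
  · rw [coe_mul_apply, refl_apply_of_ortho (hn0 1) (hperp 2 1 (by decide)),
      refl_apply_of_ortho (hn0 0) (hperp 2 0 (by decide))]
    exact hei.mem 2

/-- The commutator subgroup does not preserve the roots. -/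
theorem roots_not_preserved (hq : Fintype.card F = 3) (hQ : (polarBilin Q).Nondegenerate)
    (hn : 7 ≤ Module.finrank F V) {t : ℕ}
    {D : Fin t → Submodule F V} (hD : IsFrame Q 3 D) (he : ∀ i, ∃ e, O33 Q (D i) ε e)
    {i j : Fin t} (hij : i ≠ j) :
    ∃ g ∈ commutator (OGrp Q), ∃ v, v ∈ Roots Q D ε ∧ (g : V ≃ₗ[F] V) v ∉ Roots Q D ε := by
  have h2 : (2 : F) ≠ 0 := two_ne_zero_of_odd (by rw [hq]; decide)
  obtain ⟨e, hei⟩ := he i
  obtain ⟨x, hx, hx0, hqx⟩ := sub_singular (hD.nondeg j) (by rw [hD.dim])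
  have hex : polar Q (e 0) x = 0 := hD.orth i j hij _ (hei.mem 0) _ hx
  have hq1 : Q (e 0) = Q (e 0 + x) := by rw [qadd Q (e 0) x, hqx, hex]; ring
  have h0 : e 0 ≠ 0 := by
    intro h
    have := hei.q 0
    rw [h, QuadraticMap.map_zero] at this
    exact hei.eps this.symm
  have h0' : e 0 + x ≠ 0 := by
    intro h
    rw [h, QuadraticMap.map_zero, hei.q] at hq1
    exact hei.eps hq1
  obtain ⟨g, hg, hgx⟩ := SGrp_trans hQ hn h0 h0' hq1
  refine ⟨g, SGrp_le_comm hQ (by omega) hg, e 0, ⟨i, hei.mem 0, hei.q 0⟩, ?_⟩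
  rw [hgx]
  rintro ⟨l, hl, -⟩
  have hx' : polar Q x (e 0) = 0 := by rw [pc, hex]
  by_cases hli : l = i
  · subst hli
    have h4 := (D l).sub_mem hl (hei.mem 0)
    rw [add_sub_cancel_left] at h4
    exact hx0 (hD.disj hij h4 hx)
  · have h3 : polar Q (e 0 + x) (e 0) = 0 := hD.orth l i hli _ hl _ (hei.mem 0)
    rw [pal, pself, hei.q, hx', add_zero] at h3
    exact mul_ne_zero h2 hei.eps h3

end

/-- Over the field with three elements the stabiliser of a decomposition into three-dimensional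
subspaces is not maximal. -/
theorem o33_not_maximal {ι : Type} [Fintype ι] [DecidableEq ι] {F : Type*} [Field F] [Fintype F]
    (hq : Fintype.card F = 3) (Q : QuadraticForm F (ι → F)) (hQ : (polarBilin Q).Nondegenerate)
    (hn : 7 ≤ Module.finrank F (ι → F)) {t : ℕ} {D : Fin t → Submodule F (ι → F)}
    (hD : Cfsg.Geo.IsOrthogonalMDecomposition (⇑Q) 3 D) :
    ∃ K : Subgroup (Matrix.GeneralLinearGroup ι F),
      Cfsg.Geo.decompositionStabilizer D ⊓ Cfsg.Geo.omegaGL ⇑Q < K ∧ K < Cfsg.Geo.omegaGL ⇑Q := by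
  have ht := hD.decomp.decomp.two_le
  set i0 : Fin t := ⟨0, by omega⟩
  set i1 : Fin t := ⟨1, by omega⟩
  have h01 : i0 ≠ i1 := by simp [i0, i1]
  have hF := isFrame_of_decomp hD
  obtain ⟨ε, e, he0⟩ := exists_o33 hq (hF.nondeg i0) (hF.dim i0)
  have he : ∀ i, ∃ e, O33 Q (D i) ε e := by
    intro i
    obtain ⟨φ, hφ⟩ := hD.isometric i0 i
    exact ⟨_, he0.map φ hφ⟩
  set K : Subgroup (Matrix.GeneralLinearGroup ι F) :=
    Cfsg.stabilizing (Cfsg.glToMat ι F) (Roots Q D ε) with hK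
  have hKmem : ∀ g : ↥(Cfsg.isometryGroup F ⇑Q), (g : Matrix.GeneralLinearGroup ι F) ∈ K ↔
      ∀ v, v ∈ Roots Q D ε ↔ (bridge Q g : (ι → F) ≃ₗ[F] (ι → F)) v ∈ Roots Q D ε :=
    fun g => Iff.rfl
  refine ⟨K ⊓ Cfsg.Geo.omegaGL ⇑Q, lt_of_le_of_ne ?_ ?_, lt_of_le_of_ne inf_le_right ?_⟩
  · rintro g ⟨hgD, hgΩ⟩
    refine ⟨?_, hgΩ⟩
    have hgI : g ∈ Cfsg.isometryGroup F ⇑Q := omegaGL_le Q hgΩ
    have hfw : ∀ g' : ↥(Cfsg.isometryGroup F ⇑Q),
        (g' : Matrix.GeneralLinearGroup ι F) ∈ Cfsg.Geo.decompositionStabilizer D → ∀ v,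
        v ∈ Roots Q D ε → (bridge Q g' : (ι → F) ≃ₗ[F] (ι → F)) v ∈ Roots Q D ε := by
      rintro g' hg' v ⟨i, hi, hqv⟩
      obtain ⟨σ, hσ⟩ := (mem_decompStab_iff Q D g').1 hg'
      exact ⟨σ i, by rw [← hσ]; exact apply_mem_act hi, by rw [OGrp_q, hqv]⟩
    refine (hKmem ⟨g, hgI⟩).2 fun v => ⟨hfw ⟨g, hgI⟩ hgD v, fun h => ?_⟩
    have h1 := hfw (⟨g, hgI⟩ : ↥(Cfsg.isometryGroup F ⇑Q))⁻¹ ((Cfsg.Geo.decompositionStabilizer D).inv_mem hgD) _ h
    rwa [map_inv, coe_inv_apply_self] at h1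
  · intro heq
    obtain ⟨g, hg, hgR, ⟨a, ha, ha', ha0⟩, ⟨b, hb, hb', hb0⟩⟩ := roots_swap hq hQ hF he h01
    have hbg : bridge Q ((bridge Q).symm g) = g := MulEquiv.apply_symm_apply _ _
    have h1 : (((bridge Q).symm g : ↥(Cfsg.isometryGroup F ⇑Q)) :
        Matrix.GeneralLinearGroup ι F) ∈ K ⊓ Cfsg.Geo.omegaGL ⇑Q := by
      refine ⟨(hKmem _).2 ?_, ?_⟩
      · rw [hbg]; exact hgR
      · change _ ∈ Cfsg.Geo.omegaGL ⇑Q
        rw [mem_omegaGL_iff, hbg]; exact hg
    rw [← heq] at h1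
    obtain ⟨σ, hσ⟩ := (mem_decompStab_iff Q D _).1 h1.1
    rw [hbg] at hσ
    have h3 : (g : (ι → F) ≃ₗ[F] (ι → F)) a ∈ D (σ i0) := by
      rw [← hσ]; exact apply_mem_act ha
    have h4 : (g : (ι → F) ≃ₗ[F] (ι → F)) b ∈ D (σ i0) := by
      rw [← hσ]; exact apply_mem_act hb
    have h5 : σ i0 = i1 := by
      by_contra hne
      have := hF.disj hne h3 ha'
      exact ha0 ((LinearEquiv.map_eq_zero_iff _).1 this)
    have h6 : σ i0 = i0 := by
      by_contra hne
      have := hF.disj hne h4 hb'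
      exact hb0 ((LinearEquiv.map_eq_zero_iff _).1 this)
    exact h01 (h6.symm.trans h5)
  · intro heq
    obtain ⟨g, hg, v, hv, hgv⟩ := roots_not_preserved hq hQ hn hF he h01
    have hbg : bridge Q ((bridge Q).symm g) = g := MulEquiv.apply_symm_apply _ _
    have h1 : (((bridge Q).symm g : ↥(Cfsg.isometryGroup F ⇑Q)) :
        Matrix.GeneralLinearGroup ι F) ∈ Cfsg.Geo.omegaGL ⇑Q := by
      rw [mem_omegaGL_iff, hbg]; exact hg
    rw [← heq] at h1
    have h3 := ((hKmem _).1 h1.1 v).1 hv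
    rw [hbg] at h3
    exact hgv h3

end Cfsg.Agent.OMax
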