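import Mathlib

/-!
Fixed point counting (Klein, Dickson): a finite group in which every element outside the kernel has
one or two fixed points.
-/

set_option autoImplicit false
set_option linter.unusedSectionVars false

namespace Cfsg.Agent.OMax

open Finset

section Abstract

variable {G X : Type*} [Group G] [Fintype G] [DecidableEq G] [MulAction G X] [DecidableEq X]

theorem orbit_stab (x : X) :
    (univ.image fun g : G => g • x).card * (univ.filter fun A : G => A • x = x).card =
      Fintype.card G := by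
  have : Fintype (MulAction.orbit G x) :=
    Set.Finite.fintype (s := MulAction.orbit G x) (Set.finite_range _)
  have : Fintype (MulAction.stabilizer G x) := Fintype.ofFinite _
  have h := MulAction.card_orbit_mul_card_stabilizer_eq_card_group G x
  have e1 : Fintype.card (MulAction.orbit G x) = (univ.image fun g : G => g • x).card := by
    rw [← Set.toFinset_card]
    congr 1
    ext y
    rw [Set.mem_toFinset, Finset.mem_image]
    simp [MulAction.mem_orbit_iff]
  have e2 : Fintype.card (MulAction.stabilizer G x) =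
      (univ.filter fun A : G => A • x = x).card := by
    rw [Fintype.card_subtype]
    congr 1
  rw [e1, e2] at h
  exact h

theorem orbit_count (Z : Finset G) (hZ : ∀ A, A ∈ Z ↔ ∀ x : X, A • x = x)
    (fx : G → Finset X) (hfx : ∀ A ∉ Z, ∀ x, x ∈ fx A ↔ A • x = x)
    (h12 : ∀ A ∉ Z, (fx A).card = 1 ∨ (fx A).card = 2) (x0 : X) (u : ℕ)
    (hu : (univ.filter fun A : G => A ∉ Z ∧ A • x0 = x0 ∧ (fx A).card = 1).card = u)
    (huz : Z.card < u) :
    (univ.image fun g : G => g • x0).card ≤ 1 ∨
      ∃ g', Z.card * Fintype.card G =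
        g' * (2 * Z.card + (univ.image fun g : G => g • x0).card * (u - Z.card)) := by
  -- notation
  set z := Z.card with hz
  set n := Fintype.card G with hn
  have h1Z : (1 : G) ∈ Z := (hZ 1).2 fun x => one_smul G x
  have hz1 : 1 ≤ z := Finset.card_pos.2 ⟨1, h1Z⟩
  let O : X → Finset X := fun x => univ.image fun g : G => g • x
  let St : X → Finset G := fun x => univ.filter fun A : G => A • x = x
  let U : X → Finset G := fun x => univ.filter fun A : G => A ∉ Z ∧ A • x = x ∧ (fx A).card = 1
  let T : X → Finset G := fun x => univ.filter fun A : G => A ∉ Z ∧ A • x = x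
  let w : G → ℕ := fun A => if (fx A).card = 1 then 2 else 1
  let f : X → ℕ := fun x => ∑ A ∈ T x, w A
  have hOmem : ∀ x y, y ∈ O x ↔ ∃ g : G, g • x = y := by
    intro x y; simp [O]
  -- orbit-stabiliser
  have horb : ∀ x, (O x).card * (St x).card = n := by
    intro x
    have : Fintype (MulAction.orbit G x) :=
      Set.Finite.fintype (s := MulAction.orbit G x) (Set.finite_range _)
    have : Fintype (MulAction.stabilizer G x) := Fintype.ofFinite _
    have h := MulAction.card_orbit_mul_card_stabilizer_eq_card_group G x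
    have e1 : Fintype.card (MulAction.orbit G x) = (O x).card := by
      rw [← Set.toFinset_card]
      congr 1
      ext y
      rw [Set.mem_toFinset, hOmem]
      rfl
    have e2 : Fintype.card (MulAction.stabilizer G x) = (St x).card := by
      rw [Fintype.card_subtype]
      congr 1
    rw [e1, e2] at h
    exact h
  -- conjugation
  have hconjZ : ∀ (g A : G), A ∉ Z → g * A * g⁻¹ ∉ Z := by
    intro g A hA h
    apply hA
    rw [hZ] at h ⊢
    intro x
    have := h (g • x)
    rw [mul_smul, inv_smul_smul, mul_smul] at this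
    exact MulAction.injective g this
  have hconjfx : ∀ (g A : G), A ∉ Z → (fx (g * A * g⁻¹)).card = (fx A).card := by
    intro g A hA
    have : fx (g * A * g⁻¹) = (fx A).image (fun x => g • x) := by
      ext y
      rw [hfx _ (hconjZ g A hA), Finset.mem_image]
      constructor
      · intro h
        refine ⟨g⁻¹ • y, ?_, smul_inv_smul g y⟩
        rw [hfx A hA]
        have := congrArg (fun t => g⁻¹ • t) h
        simpa [mul_smul] using this
      · rintro ⟨x, hx, rfl⟩
        rw [hfx A hA] at hx
        rw [mul_smul, inv_smul_smul, mul_smul, hx]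
    rw [this, Finset.card_image_of_injective _ (MulAction.injective g)]
  have hfinv : ∀ (g : G) (x : X), f (g • x) = f x := by
    intro g x
    refine Finset.sum_bij' (fun A _ => g⁻¹ * A * g) (fun A _ => g * A * g⁻¹) ?_ ?_ ?_ ?_ ?_
    · intro A hA
      simp only [T, mem_filter, mem_univ, true_and] at hA ⊢
      constructor
      · have := hconjZ g⁻¹ A hA.1
        rwa [inv_inv] at this
      · rw [mul_smul, mul_smul, hA.2, inv_smul_smul]
    · intro A hA
      simp only [T, mem_filter, mem_univ, true_and] at hA ⊢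
      refine ⟨hconjZ g A hA.1, ?_⟩
      rw [mul_smul, inv_smul_smul, mul_smul, hA.2]
    · intro A _; group
    · intro A _; group
    · intro A hA
      simp only [T, mem_filter, mem_univ, true_and] at hA
      have := hconjfx g⁻¹ A hA.1
      rw [inv_inv] at this
      simp only [w, this]
  -- the finite set of all fixed points
  let Xs : Finset X := (univ.filter fun A : G => A ∉ Z).biUnion fx
  have hXmem : ∀ x, x ∈ Xs ↔ ∃ A, A ∉ Z ∧ A • x = x := by
    intro x
    simp only [Xs, Finset.mem_biUnion, mem_filter, mem_univ, true_and]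
    exact exists_congr fun A => and_congr_right fun hA => hfx A hA x
  have hXinv : ∀ (g : G) (x : X), x ∈ Xs → g • x ∈ Xs := by
    intro g x hx
    rw [hXmem] at hx ⊢
    obtain ⟨A, hA, hAx⟩ := hx
    exact ⟨g * A * g⁻¹, hconjZ g A hA, by rw [mul_smul, inv_smul_smul, mul_smul, hAx]⟩
  have htotal : ∑ x ∈ Xs, f x = 2 * (n - z) := by
    have h1 : ∑ A ∈ univ.filter (fun A : G => A ∉ Z), ∑ x ∈ fx A, w A = ∑ x ∈ Xs, f x := by
      refine Finset.sum_comm' ?_
      intro A x
      simp only [T, mem_filter, mem_univ, true_and, hXmem]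
      constructor
      · rintro ⟨hA, hx⟩
        rw [hfx A hA] at hx
        exact ⟨⟨hA, hx⟩, A, hA, hx⟩
      · rintro ⟨⟨hA, hx⟩, -⟩
        exact ⟨hA, (hfx A hA x).2 hx⟩
    rw [← h1]
    have h2 : ∀ A ∈ univ.filter (fun A : G => A ∉ Z), ∑ x ∈ fx A, w A = 2 := by
      intro A hA
      simp only [mem_filter, mem_univ, true_and] at hA
      rw [Finset.sum_const, smul_eq_mul]
      rcases h12 A hA with h | h
      · simp [w, h]
      · simp [w, h]
    rw [Finset.sum_congr rfl h2, Finset.sum_const, smul_eq_mul, mul_comm]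
    congr 1
    have h3 : (univ.filter fun A : G => A ∉ Z) = Zᶜ := by
      ext A; simp
    rw [h3, Finset.card_compl]
  -- the value of f
  have hf : ∀ x, f x + z = (St x).card + (U x).card := by
    intro x
    have h1 : f x = (T x).card + (U x).card := by
      have : ∀ A ∈ T x, w A = 1 + if (fx A).card = 1 then 1 else 0 := by
        intro A _
        by_cases h : (fx A).card = 1
        · simp [w, h]
        · simp [w, h]
      simp only [f]
      rw [Finset.sum_congr rfl this, Finset.sum_add_distrib, Finset.sum_const, smul_eq_mul,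
        mul_one, ← Finset.sum_filter, Finset.sum_const, smul_eq_mul, mul_one]
      congr 2
      ext A
      simp only [T, U, mem_filter, mem_univ, true_and, and_assoc]
    have h2 : (T x).card + z = (St x).card := by
      rw [hz, ← Finset.card_union_of_disjoint]
      · congr 1
        ext A
        simp only [T, St, mem_union, mem_filter, mem_univ, true_and]
        constructor
        · rintro (h | h)
          · exact h.2
          · exact (hZ A).1 h x
        · intro h
          by_cases hA : A ∈ Z
          · exact Or.inr hA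
          · exact Or.inl ⟨hA, h⟩
      · rw [Finset.disjoint_left]
        intro A hA hA'
        simp only [T, mem_filter, mem_univ, true_and] at hA
        exact hA.1 hA'
    omega
  have hUle : ∀ x, (U x).card + z ≤ (St x).card := by
    intro x
    rw [hz, ← Finset.card_union_of_disjoint]
    · refine Finset.card_le_card ?_
      intro A hA
      simp only [U, St, mem_union, mem_filter, mem_univ, true_and] at hA ⊢
      rcases hA with h | h
      · exact h.2.1
      · exact (hZ A).1 h x
    · rw [Finset.disjoint_left]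
      intro A hA hA'
      simp only [U, mem_filter, mem_univ, true_and] at hA
      exact hA.1 hA'
  -- translates by Z
  have hZA : ∀ (ζ A : G), ζ ∈ Z → A ∉ Z → ζ * A ∉ Z := by
    intro ζ A hζ hA h
    apply hA
    rw [hZ] at h hζ ⊢
    intro x
    have := h x
    rw [mul_smul, hζ] at this
    exact this
  have hUz : ∀ x, 0 < (U x).card → z ≤ (U x).card := by
    intro x hpos
    obtain ⟨A, hA⟩ := Finset.card_pos.1 hpos
    simp only [U, mem_filter, mem_univ, true_and] at hA
    have : (Z.image fun ζ => ζ * A).card = z :=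
      Finset.card_image_of_injective _ (mul_left_injective A)
    rw [← this]
    refine Finset.card_le_card ?_
    intro B hB
    obtain ⟨ζ, hζ, rfl⟩ := Finset.mem_image.1 hB
    simp only [U, mem_filter, mem_univ, true_and]
    refine ⟨hZA ζ A hζ hA.1, ?_, ?_⟩
    · rw [mul_smul, hA.2.1, (hZ ζ).1 hζ]
    · rw [← hA.2.2]
      congr 1
      ext y
      rw [hfx _ (hZA ζ A hζ hA.1), hfx A hA.1, mul_smul, (hZ ζ).1 hζ]
  have hStz : ∀ x ∈ Xs, 2 * z ≤ (St x).card := by
    intro x hx
    obtain ⟨A, hA, hAx⟩ := (hXmem x).1 hx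
    have h1 : (Z.image fun ζ => ζ * A).card = z :=
      Finset.card_image_of_injective _ (mul_left_injective A)
    have h2 : Disjoint Z (Z.image fun ζ => ζ * A) := by
      rw [Finset.disjoint_left]
      intro B hB hB'
      obtain ⟨ζ, hζ, rfl⟩ := Finset.mem_image.1 hB'
      exact hZA ζ A hζ hA hB
    have h3 : (Z ∪ Z.image fun ζ => ζ * A).card = 2 * z := by
      rw [Finset.card_union_of_disjoint h2, h1]; omega
    rw [← h3]
    refine Finset.card_le_card ?_
    intro B hB
    simp only [St, mem_filter, mem_univ, true_and]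
    rcases Finset.mem_union.1 hB with hB | hB
    · exact (hZ B).1 hB x
    · obtain ⟨ζ, hζ, rfl⟩ := Finset.mem_image.1 hB
      rw [mul_smul, hAx, (hZ ζ).1 hζ]
  -- sums over orbits
  have hsumO : ∀ x, ∑ y ∈ O x, f y = (O x).card * f x := by
    intro x
    rw [Finset.sum_congr rfl (g := fun _ => f x), Finset.sum_const, smul_eq_mul]
    intro y hy
    obtain ⟨g, rfl⟩ := (hOmem x y).1 hy
    exact hfinv g x
  have hOsub : ∀ x ∈ Xs, O x ⊆ Xs := by
    intro x hx y hy
    obtain ⟨g, rfl⟩ := (hOmem x y).1 hy
    exact hXinv g x hx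
  have hOdisj : ∀ x y, x ∉ O y → Disjoint (O y) (O x) := by
    intro x y hxy
    rw [Finset.disjoint_left]
    intro t ht ht'
    obtain ⟨g, rfl⟩ := (hOmem y t).1 ht
    obtain ⟨h, hh⟩ := (hOmem x _).1 ht'
    apply hxy
    rw [hOmem]
    exact ⟨h⁻¹ * g, by rw [mul_smul, ← hh, inv_smul_smul]⟩
  have hx0 : x0 ∈ Xs := by
    have : 0 < (U x0).card := by
      have : (U x0).card = u := hu
      omega
    obtain ⟨A, hA⟩ := Finset.card_pos.1 this
    simp only [U, mem_filter, mem_univ, true_and] at hA
    exact (hXmem x0).2 ⟨A, hA.1, hA.2.1⟩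
  -- main arithmetic
  have hU0 : (U x0).card = u := hu
  have hO0 : (univ.image fun g : G => g • x0) = O x0 := rfl
  rw [hO0]
  set ω := (O x0).card with hω
  have hnω : ω * (St x0).card = n := horb x0
  have hf0 := hf x0
  have hzn : z ≤ n := Finset.card_le_univ Z
  have hωf : ω * f x0 + ω * z = n + ω * u := by
    rw [← mul_add, hf0, mul_add, hnω, hU0]
  have hsplit : ∑ y ∈ Xs \ O x0, f y + ω * f x0 = 2 * (n - z) := by
    rw [← hsumO x0, Finset.sum_sdiff (hOsub x0 hx0), htotal]
  have hωpos : 0 < ω := Finset.card_pos.2 ⟨x0, (hOmem x0 x0).2 ⟨1, one_smul G x0⟩⟩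
  by_cases hemp : Xs \ O x0 = ∅
  · left
    rw [hemp, Finset.sum_empty, zero_add] at hsplit
    have h1 := hUle x0
    rw [hU0] at h1
    have h2 : ω * u + ω * z ≤ n := by rw [← mul_add, ← hnω]; exact Nat.mul_le_mul_left _ h1
    have h3 : ω * z ≤ z := by omega
    by_contra hcon
    push Not at hcon
    have h4 : 2 * z ≤ ω * z := Nat.mul_le_mul_right _ hcon
    omega
  · right
    obtain ⟨x1, hx1⟩ := Finset.nonempty_iff_ne_empty.2 hemp
    rw [Finset.mem_sdiff] at hx1
    have hωu : ω * z + ω * (u - z) = ω * u := by rw [← mul_add]; congr 1; omega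
    have hRlt : ∑ y ∈ Xs \ O x0, f y + 2 * z + ω * (u - z) = n := by omega
    have hge : ∀ x ∈ Xs, x ∉ O x0 → (∑ y ∈ O x, f y) ≤ ∑ y ∈ Xs \ O x0, f y := by
      intro x hx hx'
      refine Finset.sum_le_sum_of_subset ?_
      intro t ht
      rw [Finset.mem_sdiff]
      exact ⟨hOsub x hx ht, fun h => (Finset.disjoint_left.1 (hOdisj x x0 hx')) h ht⟩
    have hval : ∀ x ∈ Xs, x ∉ O x0 → (O x).card * f x + (O x).card * z = n ∧
        n ≤ 2 * ((O x).card * f x) := by
      intro x hx hx'
      have h1 := hge x hx hx'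
      rw [hsumO] at h1
      have h2 := hf x
      have h3 : (O x).card * f x + (O x).card * z = n + (O x).card * (U x).card := by
        rw [← mul_add, h2, mul_add, horb]
      have hu0 : (U x).card = 0 := by
        by_contra hne
        have h4 := hUz x (Nat.pos_of_ne_zero hne)
        have h5 : (O x).card * z ≤ (O x).card * (U x).card := Nat.mul_le_mul_left _ h4
        omega
      rw [hu0, mul_zero, add_zero] at h3
      refine ⟨h3, ?_⟩
      have h6 := hStz x hx
      have h7 : (O x).card * (2 * z) ≤ n := by rw [← horb x]; exact Nat.mul_le_mul_left _ h6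
      have h8 : (O x).card * (2 * z) = 2 * ((O x).card * z) := by ring
      omega
    have hone : Xs \ O x0 = O x1 := by
      refine Finset.Subset.antisymm ?_ ?_
      · intro x2 hx2
        by_contra hx2'
        rw [Finset.mem_sdiff] at hx2
        have h1 := (hval x1 hx1.1 hx1.2).2
        have h2 := (hval x2 hx2.1 hx2.2).2
        have h3 : ∑ y ∈ O x1, f y + ∑ y ∈ O x2, f y ≤ ∑ y ∈ Xs \ O x0, f y := by
          rw [← Finset.sum_union (hOdisj x2 x1 hx2')]
          refine Finset.sum_le_sum_of_subset ?_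
          intro t ht
          rw [Finset.mem_sdiff]
          rcases Finset.mem_union.1 ht with ht | ht
          · exact ⟨hOsub x1 hx1.1 ht, fun h =>
              (Finset.disjoint_left.1 (hOdisj x1 x0 hx1.2)) h ht⟩
          · exact ⟨hOsub x2 hx2.1 ht, fun h =>
              (Finset.disjoint_left.1 (hOdisj x2 x0 hx2.2)) h ht⟩
        rw [hsumO, hsumO] at h3
        omega
      · intro t ht
        rw [Finset.mem_sdiff]
        exact ⟨hOsub x1 hx1.1 ht, fun h =>
          (Finset.disjoint_left.1 (hOdisj x1 x0 hx1.2)) h ht⟩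
    rw [hone, hsumO] at hRlt
    have h1 := (hval x1 hx1.1 hx1.2).1
    refine ⟨(St x1).card, ?_⟩
    have h2 : (O x1).card * z = 2 * z + ω * (u - z) := by omega
    rw [← h2, ← horb x1]
    ring

end Abstract

section SL2

open Polynomial OnePoint Matrix

/-- Fixed points of a non-scalar matrix on the projective line over an algebraically closed
field. -/
theorem fix_finset {k : Type*} [Field k] [IsAlgClosed k] [DecidableEq k]
    [DecidableEq (OnePoint k)] (g : GL (Fin 2) k)
    (hg : ¬ (g 1 0 = 0 ∧ g 0 1 = 0 ∧ g 0 0 = g 1 1)) :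
    ∃ s : Finset (OnePoint k), (∀ x, x ∈ s ↔ g • x = x) ∧ (s.card = 1 ∨ s.card = 2) ∧
      (g 1 0 = 0 → (s.card = 1 ↔ g 0 0 = g 1 1)) := by
  have hdet : g 0 0 * g 1 1 - g 0 1 * g 1 0 ≠ 0 := by
    have := g.det_ne_zero
    rwa [Matrix.det_fin_two] at this
  by_cases hc : g 1 0 = 0
  · have hd : g 1 1 ≠ 0 := by
      intro h; apply hdet; rw [h, hc]; ring
    by_cases had : g 0 0 = g 1 1
    · have hb : g 0 1 ≠ 0 := fun h => hg ⟨hc, h, had⟩
      refine ⟨{∞}, ?_, Or.inl (by simp), fun _ => by simp [had]⟩
      intro x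
      rw [Finset.mem_singleton]
      induction x using OnePoint.rec with
      | infty => simp [smul_infty_eq_self_iff, hc]
      | coe t =>
        rw [smul_some_eq_ite, hc, zero_mul, zero_add, if_neg hd, coe_eq_coe, div_eq_iff hd, had]
        constructor
        · intro h; exact absurd h (coe_ne_infty t)
        · intro h
          exfalso; apply hb
          linear_combination h
    · have had' : g 1 1 - g 0 0 ≠ 0 := fun h => had (sub_eq_zero.1 h).symm
      refine ⟨{(∞ : OnePoint k), ((g 0 1 / (g 1 1 - g 0 0) : k) : OnePoint k)}, ?_, Or.inr ?_,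
        fun _ => ?_⟩
      · intro x
        rw [Finset.mem_insert, Finset.mem_singleton]
        induction x using OnePoint.rec with
        | infty => simp [smul_infty_eq_self_iff, hc]
        | coe t =>
          rw [smul_some_eq_ite, hc, zero_mul, zero_add, if_neg hd, coe_eq_coe, coe_eq_coe,
            div_eq_iff hd, eq_div_iff had']
          constructor
          · rintro (h | h)
            · exact absurd h (coe_ne_infty t)
            · linear_combination -h
          · intro h
            right
            linear_combination -h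
      · rw [Finset.card_pair]
        exact infty_ne_coe _
      · rw [Finset.card_pair (infty_ne_coe _)]
        simp [had]
  · set p : k[X] := C (g 1 0) * X ^ 2 + C (g 1 1 - g 0 0) * X + C (-g 0 1) with hp
    have hdeg : p.natDegree = 2 := natDegree_quadratic hc
    have hp0 : p ≠ 0 := by
      intro h; rw [h] at hdeg; simp at hdeg
    have hroots : Multiset.card p.roots = 2 := by
      rw [← hdeg]
      exact (splits_iff_card_roots.1 (IsAlgClosed.splits p))
    refine ⟨p.roots.toFinset.image (fun t : k => (t : OnePoint k)), ?_, ?_, fun h => absurd h hc⟩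
    · intro x
      rw [Finset.mem_image]
      induction x using OnePoint.rec with
      | infty =>
        rw [smul_infty_eq_self_iff]
        constructor
        · rintro ⟨t, -, ht⟩; exact absurd ht (coe_ne_infty t)
        · intro h; exact absurd h hc
      | coe t =>
        rw [← Matrix.GeneralLinearGroup.fixpointPolynomial_aeval_eq_zero_iff]
        have : g.fixpointPolynomial = p := by
          rw [Matrix.GeneralLinearGroup.fixpointPolynomial, hp, C_neg, sub_eq_add_neg]
        rw [this]
        constructor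
        · rintro ⟨t', ht', h⟩
          rw [coe_eq_coe] at h
          subst h
          rw [Multiset.mem_toFinset, mem_roots hp0] at ht'
          simpa using ht'
        · intro h
          refine ⟨t, ?_, rfl⟩
          rw [Multiset.mem_toFinset, mem_roots hp0]
          simpa using h
    · rw [Finset.card_image_of_injective _ (fun a b h => coe_eq_coe.1 h)]
      have h1 : p.roots.toFinset.card ≤ 2 := by
        rw [← hroots]; exact Multiset.toFinset_card_le _
      have h2 : 0 < p.roots.toFinset.card := by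
        rw [Finset.card_pos, Multiset.toFinset_nonempty]
        intro h; rw [h] at hroots; simp at hroots
      omega

/-- The final arithmetic contradiction. -/
theorem arith_false {z ω Q k g' : ℕ} (hz : 0 < z) (h4 : 0 < k) (hk : 2 * k + 2 ≤ Q)
    (hω : 2 ≤ ω) (h : z * (ω * (Q * k)) = g' * (2 * z + ω * (z * (Q - 1) - z))) : False := by
  obtain ⟨R, rfl⟩ : ∃ R, Q = R + 2 := ⟨Q - 2, by omega⟩
  have h1 : z * (R + 2 - 1) - z = z * R := by
    have : R + 2 - 1 = R + 1 := by omega
    rw [this, mul_add, mul_one, Nat.add_sub_cancel]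
  rw [h1] at h
  have h2 : ω * ((R + 2) * k) = g' * (2 + ω * R) := by
    have : z * (ω * ((R + 2) * k)) = z * (g' * (2 + ω * R)) := by rw [h]; ring
    exact Nat.eq_of_mul_eq_mul_left hz this
  by_cases hg : g' ≤ k
  · have h3 : ω * ((R + 2) * k) ≤ k * (2 + ω * R) := by
      rw [h2]; exact Nat.mul_le_mul_right _ hg
    nlinarith
  · push Not at hg
    nlinarith [Nat.mul_le_mul_right (2 + ω * R) hg]

/-- The upper unitriangular matrix. -/
def xm {F : Type*} [Field F] (c : F) : Matrix.SpecialLinearGroup (Fin 2) F :=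
  ⟨!![1, c; 0, 1], by simp⟩

theorem sl2_mul {F : Type*} [Field F] (A B : Matrix.SpecialLinearGroup (Fin 2) F) (i j : Fin 2) :
    (A * B) i j = A i 0 * B 0 j + A i 1 * B 1 j := by
  change ((A : Matrix (Fin 2) (Fin 2) F) * (B : Matrix (Fin 2) (Fin 2) F)) i j = _
  rw [Matrix.mul_apply, Fin.sum_univ_two]

theorem xm_mul_entries {F : Type*} [Field F] (A : Matrix.SpecialLinearGroup (Fin 2) F) (c : F) :
    (A * xm c) 0 0 = A 0 0 ∧ (A * xm c) 0 1 = A 0 0 * c + A 0 1 ∧ (A * xm c) 1 0 = A 1 0 ∧
      (A * xm c) 1 1 = A 1 0 * c + A 1 1 := by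
  simp only [sl2_mul]
  simp [xm]

theorem sl2_ext {F : Type*} [Field F] {A B : Matrix.SpecialLinearGroup (Fin 2) F}
    (h00 : A 0 0 = B 0 0) (h01 : A 0 1 = B 0 1) (h10 : A 1 0 = B 1 0) (h11 : A 1 1 = B 1 1) :
    A = B := by
  ext i j
  fin_cases i <;> fin_cases j
  · exact h00
  · exact h01
  · exact h10
  · exact h11

theorem sl2_det {F : Type*} [Field F] (A : Matrix.SpecialLinearGroup (Fin 2) F) :
    A 0 0 * A 1 1 - A 0 1 * A 1 0 = 1 := by
  have := A.2
  rwa [Matrix.det_fin_two] at this

/-- Main count: a subgroup of `SL₂(F)` whose stabiliser of infinity has a large unipotent part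
and a small torus part fixes infinity. -/
theorem p1_false {F : Type*} [Field F] [Fintype F] [DecidableEq F]
    (G : Subgroup (Matrix.SpecialLinearGroup (Fin 2) F)) (hneg : -1 ∈ G)
    (Γ : Finset F) (hΓ : ∀ c, c ∈ Γ ↔ xm c ∈ G)
    (Λ : Finset F) (hΛ : ∀ a, a ∈ Λ ↔ ∃ A ∈ G, A 1 0 = 0 ∧ A 0 0 = a)
    (hcard : 2 * Λ.card + 2 ≤ Γ.card) (hmove : ∃ A ∈ G, A 1 0 ≠ 0) : False := by
  classical
  let k := AlgebraicClosure F
  let φ : ↥G →* GL (Fin 2) k :=
    ((Matrix.GeneralLinearGroup.map (algebraMap F k)).comp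
      Matrix.SpecialLinearGroup.toGL).comp G.subtype
  let act : MulAction ↥G (OnePoint k) := MulAction.compHom _ φ
  have hφ : ∀ (A : ↥G) (i j : Fin 2),
      (φ A) i j = algebraMap F k ((A : Matrix.SpecialLinearGroup (Fin 2) F) i j) := by
    intro A i j
    rfl
  have hact : ∀ (A : ↥G) (x : OnePoint k), A • x = φ A • x := fun A x => rfl
  have hinj : Function.Injective (algebraMap F k) := (algebraMap F k).injective
  let n1 : ↥G := ⟨-1, hneg⟩
  have hn1 : ∀ i j, (n1 : Matrix.SpecialLinearGroup (Fin 2) F) i j =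
      -((1 : Matrix (Fin 2) (Fin 2) F) i j) := by
    intro i j
    change (-(1 : Matrix.SpecialLinearGroup (Fin 2) F) : Matrix (Fin 2) (Fin 2) F) i j = _
    simp
  let Z : Finset ↥G := {1, n1}
  have hmemZ : ∀ A, A ∈ Z ↔ A = 1 ∨ A = n1 := by
    intro A; simp [Z]
  let S : ↥G → Matrix.SpecialLinearGroup (Fin 2) F := fun A => (A : Matrix.SpecialLinearGroup _ F)
  have hSmul : ∀ A B : ↥G, S (A * B) = S A * S B := fun _ _ => rfl
  have hS1 : ∀ i j, S 1 i j = (1 : Matrix (Fin 2) (Fin 2) F) i j := fun _ _ => rfl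
  -- elements with equal eigenvalues
  have hunip : ∀ A : ↥G, S A 1 0 = 0 → S A 0 0 = S A 1 1 →
      ∃ ζ ∈ Z, ∃ c ∈ Γ, S A = S ζ * xm c := by
    intro A h10 h00
    have hdet := sl2_det (S A)
    rw [h10, ← h00, mul_zero, sub_zero] at hdet
    rcases mul_self_eq_one_iff.1 hdet with h1 | h1
    · have e1 : S A = S 1 * xm (S A 0 1) := by
        have hx := xm_mul_entries (S 1) (S A 0 1)
        refine sl2_ext ?_ ?_ ?_ ?_
        · rw [hx.1, hS1, h1]; simp
        · rw [hx.2.1, hS1, hS1]; simp
        · rw [hx.2.2.1, hS1, h10]; simp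
        · rw [hx.2.2.2, hS1, hS1, ← h00, h1]; simp
      refine ⟨1, (hmemZ 1).2 (Or.inl rfl), S A 0 1, ?_, e1⟩
      rw [hΓ]
      have e2 : S A = xm (S A 0 1) := by
        have := e1
        rwa [show S 1 = 1 from rfl, one_mul] at this
      rw [← e2]; exact A.2
    · have e1 : S A = S n1 * xm (-(S A 0 1)) := by
        have hx := xm_mul_entries (S n1) (-(S A 0 1))
        refine sl2_ext ?_ ?_ ?_ ?_
        · rw [hx.1, hn1, h1]; simp
        · rw [hx.2.1, hn1, hn1]; simp
        · rw [hx.2.2.1, hn1, h10]; simp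
        · rw [hx.2.2.2, hn1, hn1, ← h00, h1]; simp
      refine ⟨n1, (hmemZ n1).2 (Or.inr rfl), -(S A 0 1), ?_, e1⟩
      rw [hΓ]
      have e2 : xm (-(S A 0 1)) = (S n1)⁻¹ * S A := eq_inv_mul_of_mul_eq e1.symm
      rw [e2]
      exact G.mul_mem (G.inv_mem hneg) A.2
  have hnS : ∀ A ∉ Z, ¬ ((φ A) 1 0 = 0 ∧ (φ A) 0 1 = 0 ∧ (φ A) 0 0 = (φ A) 1 1) := by
    rintro A hA ⟨h10, h01, h00⟩
    rw [hφ] at h10 h01 h00
    rw [hφ] at h00
    have h10' : S A 1 0 = 0 := hinj (by rw [map_zero]; exact h10)
    have h01' : S A 0 1 = 0 := hinj (by rw [map_zero]; exact h01)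
    have h00' : S A 0 0 = S A 1 1 := hinj h00
    have hdet := sl2_det (S A)
    rw [h10', ← h00', mul_zero, sub_zero] at hdet
    apply hA
    rw [hmemZ]
    rcases mul_self_eq_one_iff.1 hdet with h1 | h1
    · left
      apply Subtype.ext
      refine sl2_ext ?_ ?_ ?_ ?_
      · exact h1
      · exact h01'
      · exact h10'
      · exact (h00'.symm.trans h1)
    · right
      apply Subtype.ext
      refine sl2_ext ?_ ?_ ?_ ?_
      · rw [hn1]; exact h1
      · rw [hn1]; simpa using h01'
      · rw [hn1]; simpa using h10'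
      · rw [hn1]; exact (h00'.symm.trans h1)
  have hfxex : ∀ A : ↥G, ∃ s : Finset (OnePoint k), A ∉ Z →
      ((∀ x, x ∈ s ↔ φ A • x = x) ∧ (s.card = 1 ∨ s.card = 2) ∧
      ((φ A) 1 0 = 0 → (s.card = 1 ↔ (φ A) 0 0 = (φ A) 1 1))) := by
    intro A
    by_cases hA : A ∈ Z
    · exact ⟨∅, fun h => absurd hA h⟩
    · obtain ⟨s, hs⟩ := fix_finset (φ A) (hnS A hA)
      exact ⟨s, fun _ => hs⟩
  choose fx hfx using hfxex
  have hinf : ∀ A : ↥G, A • (∞ : OnePoint k) = ∞ ↔ S A 1 0 = 0 := by
    intro A
    rw [hact, smul_infty_eq_self_iff, hφ, ← map_zero (algebraMap F k), hinj.eq_iff]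
  have hZ : ∀ A : ↥G, A ∈ Z ↔ ∀ x : OnePoint k, A • x = x := by
    intro A
    constructor
    · intro h
      rcases (hmemZ A).1 h with rfl | rfl
      · intro x; exact one_smul _ x
      · intro x
        rw [hact]
        induction x using OnePoint.rec with
        | infty => rw [smul_infty_eq_self_iff, hφ, hn1]; simp
        | coe t =>
          rw [smul_some_eq_ite]
          simp only [hφ, hn1]
          simp
    · intro h
      by_contra hA
      apply hnS A hA
      have hc : (φ A) 1 0 = 0 := by
        have := h ∞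
        rwa [hact, smul_infty_eq_self_iff] at this
      have hd : (φ A) 1 1 ≠ 0 := by
        intro hd
        apply (φ A).det_ne_zero
        rw [Matrix.det_fin_two, hc, hd]; ring
      have h0 := h ((0 : k) : OnePoint k)
      have h1 := h ((1 : k) : OnePoint k)
      rw [hact, smul_some_eq_ite, hc, zero_mul, zero_add, if_neg hd, coe_eq_coe,
        div_eq_iff hd] at h0 h1
      have hb : (φ A) 0 1 = 0 := by simpa using h0
      rw [hb] at h1
      exact ⟨hc, hb, by simpa using h1⟩
  -- the unipotent elements fixing infinity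
  have h0Γ : (0 : F) ∈ Γ := by
    rw [hΓ]
    have : xm (0 : F) = 1 := by
      ext i j
      fin_cases i <;> fin_cases j <;> simp [xm]
    rw [this]; exact G.one_mem
  have hcharn1 : S 1 0 0 = S n1 0 0 → (1 : ↥G) = n1 := by
    intro h
    rw [hS1, hn1] at h
    have h2 : (1 : F) = -1 := by simpa using h
    apply Subtype.ext
    refine sl2_ext ?_ ?_ ?_ ?_
    · rw [hn1]; simpa using h2
    · rw [hn1]; simp
    · rw [hn1]; simp
    · rw [hn1]; simpa using h2
  have hZinj : ∀ ζ ∈ Z, ∀ ζ' ∈ Z, S ζ 0 0 = S ζ' 0 0 → ζ = ζ' := by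
    intro ζ hζ ζ' hζ' h
    rcases (hmemZ ζ).1 hζ with rfl | rfl <;> rcases (hmemZ ζ').1 hζ' with rfl | rfl
    · rfl
    · exact hcharn1 h
    · exact (hcharn1 h.symm).symm
    · rfl
  have hZ00 : ∀ ζ ∈ Z, S ζ 0 0 ≠ 0 ∧ S ζ 1 0 = 0 ∧ S ζ 0 1 = 0 ∧ S ζ 0 0 = S ζ 1 1 := by
    intro ζ hζ
    rcases (hmemZ ζ).1 hζ with rfl | rfl
    · simp [hS1]
    · refine ⟨?_, ?_, ?_, ?_⟩
      · change (n1 : Matrix.SpecialLinearGroup (Fin 2) F) 0 0 ≠ 0
        rw [hn1]; simp
      · change (n1 : Matrix.SpecialLinearGroup (Fin 2) F) 1 0 = 0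
        rw [hn1]; simp
      · change (n1 : Matrix.SpecialLinearGroup (Fin 2) F) 0 1 = 0
        rw [hn1]; simp
      · change (n1 : Matrix.SpecialLinearGroup (Fin 2) F) 0 0 =
          (n1 : Matrix.SpecialLinearGroup (Fin 2) F) 1 1
        rw [hn1, hn1]; simp
  have hu : (univ.filter fun A : ↥G => A ∉ Z ∧ A • (∞ : OnePoint k) = ∞ ∧
      (fx A).card = 1).card = Z.card * (Γ.card - 1) := by
    have h1 : (Γ.erase 0).card = Γ.card - 1 := Finset.card_erase_of_mem h0Γ
    rw [← h1, ← Finset.card_product]
    symm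
    refine Finset.card_bij (fun p hp => p.1 *
      ⟨xm p.2, (hΓ p.2).1 (Finset.mem_of_mem_erase (Finset.mem_product.1 hp).2)⟩) ?_ ?_ ?_
    · rintro ⟨ζ, c⟩ hp
      have hζ := (Finset.mem_product.1 hp).1
      have hc := (Finset.mem_product.1 hp).2
      simp only at hζ hc
      obtain ⟨z1, z2, z3, z4⟩ := hZ00 ζ hζ
      have hx := xm_mul_entries (S ζ) c
      have hc0 : c ≠ 0 := Finset.ne_of_mem_erase hc
      have hnot : (ζ * ⟨xm c, (hΓ c).1 (Finset.mem_of_mem_erase hc)⟩ : ↥G) ∉ Z := by
        intro h
        have := (hZ00 _ h).2.2.1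
        rw [hSmul] at this
        change (S ζ * xm c) 0 1 = 0 at this
        rw [hx.2.1, z3, add_zero] at this
        exact (mul_ne_zero z1 hc0) this
      rw [Finset.mem_filter]
      refine ⟨Finset.mem_univ _, hnot, ?_, ?_⟩
      · rw [hinf, hSmul]
        change (S ζ * xm c) 1 0 = 0
        rw [hx.2.2.1, z2]
      · rw [((hfx _ hnot).2.2 ?_)]
        · rw [hφ, hφ]
          congr 1
          change (S ζ * xm c) 0 0 = (S ζ * xm c) 1 1
          rw [hx.1, hx.2.2.2, z2, zero_mul, zero_add, z4]
        · rw [hφ]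
          change algebraMap F k ((S ζ * xm c) 1 0) = 0
          rw [hx.2.2.1, z2, map_zero]
    · rintro ⟨ζ, c⟩ hp ⟨ζ', c'⟩ hp' heq
      have hζ := (Finset.mem_product.1 hp).1
      have hζ' := (Finset.mem_product.1 hp').1
      simp only at hζ hζ'
      have hx := xm_mul_entries (S ζ) c
      have hx' := xm_mul_entries (S ζ') c'
      have heq' : S ζ * xm c = S ζ' * xm c' := congrArg S heq
      have h00 : S ζ 0 0 = S ζ' 0 0 := by rw [← hx.1, heq', hx'.1]
      have := hZinj ζ hζ ζ' hζ' h00
      subst this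
      have h01 : (S ζ * xm c) 0 1 = (S ζ * xm c') 0 1 := by rw [heq']
      rw [hx.2.1, hx'.2.1] at h01
      have := mul_left_cancel₀ (hZ00 ζ hζ).1 (add_right_cancel h01)
      rw [this]
    · intro A hA
      rw [Finset.mem_filter] at hA
      obtain ⟨-, hAZ, hAinf, hA1⟩ := hA
      have h10 := (hinf A).1 hAinf
      have h10' : (φ A) 1 0 = 0 := by rw [hφ]; change algebraMap F k (S A 1 0) = 0; rw [h10, map_zero]
      have h00 := ((hfx A hAZ).2.2 h10').1 hA1
      rw [hφ, hφ] at h00
      obtain ⟨ζ, hζ, c, hc, hAc⟩ := hunip A h10 (hinj h00)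
      have hc0 : c ≠ 0 := by
        intro h
        apply hAZ
        have : xm (0 : F) = 1 := by
          ext i j
          fin_cases i <;> fin_cases j <;> simp [xm]
        rw [h, this, mul_one] at hAc
        have : A = ζ := Subtype.ext hAc
        rw [this]; exact hζ
      refine ⟨(ζ, c), Finset.mem_product.2 ⟨hζ, Finset.mem_erase.2 ⟨hc0, hc⟩⟩, ?_⟩
      exact Subtype.ext hAc.symm
  -- the stabiliser of infinity
  have hst : (univ.filter fun A : ↥G => A • (∞ : OnePoint k) = ∞).card =
      Γ.card * Λ.card := by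
    rw [Finset.card_eq_sum_card_fiberwise (f := fun A => S A 0 0) (t := Λ)]
    · rw [Finset.sum_congr rfl (g := fun _ => Γ.card), Finset.sum_const, smul_eq_mul, mul_comm]
      intro a ha
      obtain ⟨B, hB, hB10, hB00⟩ := (hΛ a).1 ha
      have ha0 : a ≠ 0 := by
        intro h
        have := sl2_det B
        rw [hB00, hB10, h] at this
        simp at this
      symm
      refine Finset.card_bij (fun c hc => (⟨B, hB⟩ : ↥G) * ⟨xm c, (hΓ c).1 hc⟩) ?_ ?_ ?_
      · intro c hc
        have hx := xm_mul_entries B c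
        rw [Finset.mem_filter, Finset.mem_filter, hinf]
        refine ⟨⟨Finset.mem_univ _, ?_⟩, ?_⟩
        · change (B * xm c) 1 0 = 0
          rw [hx.2.2.1, hB10]
        · change (B * xm c) 0 0 = a
          rw [hx.1, hB00]
      · intro c hc c' hc' heq
        have heq' : B * xm c = B * xm c' := congrArg S heq
        have hx := xm_mul_entries B c
        have hx' := xm_mul_entries B c'
        have h01 : (B * xm c) 0 1 = (B * xm c') 0 1 := by rw [heq']
        rw [hx.2.1, hx'.2.1, hB00] at h01
        exact mul_left_cancel₀ ha0 (add_right_cancel h01)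
      · intro A hA
        rw [Finset.mem_filter, Finset.mem_filter, hinf] at hA
        obtain ⟨⟨-, hA10⟩, hA00⟩ := hA
        set c := a⁻¹ * (S A 0 1 - B 0 1) with hc
        have hx := xm_mul_entries B c
        have hAeq : S A = B * xm c := by
          refine sl2_ext ?_ ?_ ?_ ?_
          · rw [hx.1, hB00]; exact hA00
          · rw [hx.2.1, hB00, hc, ← mul_assoc, mul_inv_cancel₀ ha0, one_mul, sub_add_cancel]
          · rw [hx.2.2.1, hB10]; exact hA10
          · rw [hx.2.2.2, hB10, zero_mul, zero_add]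
            have d1 := sl2_det (S A)
            have d2 := sl2_det B
            have hA00' : S A 0 0 = a := hA00
            rw [hA10, hA00', mul_zero, sub_zero] at d1
            rw [hB10, hB00, mul_zero, sub_zero] at d2
            exact mul_left_cancel₀ ha0 (d1.trans d2.symm)
        have hcΓ : c ∈ Γ := by
          rw [hΓ]
          have : xm c = B⁻¹ * S A := by rw [hAeq, inv_mul_cancel_left]
          rw [this]
          exact G.mul_mem (G.inv_mem hB) A.2
        exact ⟨c, hcΓ, Subtype.ext hAeq.symm⟩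
    · intro A hA
      rw [Finset.mem_coe, Finset.mem_filter, hinf] at hA
      rw [Finset.mem_coe, hΛ]
      exact ⟨A, A.2, hA.2, rfl⟩
  -- conclusion
  have hZpos : 0 < Z.card := Finset.card_pos.2 ⟨1, (hmemZ 1).2 (Or.inl rfl)⟩
  have hΛpos : 0 < Λ.card := by
    refine Finset.card_pos.2 ⟨1, (hΛ 1).2 ⟨1, G.one_mem, ?_, ?_⟩⟩
    · simp
    · simp
  have hω : 2 ≤ (univ.image fun g : ↥G => g • (∞ : OnePoint k)).card := by
    obtain ⟨A, hA, hA10⟩ := hmove
    have h1 : (⟨A, hA⟩ : ↥G) • (∞ : OnePoint k) ≠ ∞ := fun h => hA10 ((hinf _).1 h)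
    have h2 : ({∞, (⟨A, hA⟩ : ↥G) • (∞ : OnePoint k)} : Finset (OnePoint k)) ⊆
        (univ.image fun g : ↥G => g • (∞ : OnePoint k)) := by
      intro x hx
      rw [Finset.mem_insert, Finset.mem_singleton] at hx
      rw [Finset.mem_image]
      rcases hx with rfl | rfl
      · exact ⟨1, Finset.mem_univ _, one_smul _ _⟩
      · exact ⟨_, Finset.mem_univ _, rfl⟩
    have h3 := Finset.card_le_card h2
    rwa [Finset.card_pair h1.symm] at h3
  have horb := orbit_stab (G := ↥G) (∞ : OnePoint k)
  rcases orbit_count Z hZ fx (fun A hA x => (hfx A hA).1 x) (fun A hA => (hfx A hA).2.1)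
    (∞ : OnePoint k) (Z.card * (Γ.card - 1)) hu (by
      have : 1 < Γ.card - 1 := by omega
      calc Z.card = Z.card * 1 := (mul_one _).symm
        _ < Z.card * (Γ.card - 1) := Nat.mul_lt_mul_of_pos_left this hZpos) with h | ⟨g', h⟩
  · omega
  · rw [← horb, hst] at h
    exact arith_false hZpos hΛpos hcard hω h

end SL2

end Cfsg.Agent.OMax
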