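import Cfsg.Agent.OMax.Gen
import Cfsg.Agent.OMax.Sub

/-!
Rational structures: a quadratic space `U` over a subfield `K` inside a quadratic space `V` over `F`.
-/

set_option autoImplicit false
set_option linter.unusedSectionVars false

namespace Cfsg.Agent.OMax

open QuadraticMap Cfsg.Agent.Orth

variable {K F : Type*} [Field K] [Field F] [Algebra K F] {U V : Type*} [AddCommGroup U]
  [Module K U] [AddCommGroup V] [Module F V]

/-- `j` identifies `U` with a `K`-form of the quadratic space `V`. -/
structure RatF (q : QuadraticForm K U) (Q : QuadraticForm F V) (j : U → V) : Prop where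
  jadd : ∀ u u', j (u + u') = j u + j u'
  jsmul : ∀ (k : K) (u : U), j (k • u) = algebraMap K F k • j u
  ex : ∃ (n : ℕ) (b : Module.Basis (Fin n) K U) (b' : Module.Basis (Fin n) F V), ∀ i, b' i = j (b i)
  jq : ∀ u, Q (j u) = algebraMap K F (q u)

variable {q : QuadraticForm K U} {Q : QuadraticForm F V} {j : U → V}

namespace RatF

theorem j0 (R : RatF q Q j) : j 0 = 0 := by
  have := R.jsmul 0 0
  rwa [zero_smul, map_zero, zero_smul] at this

theorem jneg (R : RatF q Q j) (u : U) : j (-u) = -j u := by
  have := R.jsmul (-1) u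
  rwa [neg_one_smul, map_neg, map_one, neg_one_smul] at this

theorem jsub (R : RatF q Q j) (u u' : U) : j (u - u') = j u - j u' := by
  rw [sub_eq_add_neg, R.jadd, R.jneg, sub_eq_add_neg]

theorem jsum (R : RatF q Q j) {κ : Type*} (s : Finset κ) (f : κ → U) :
    j (∑ i ∈ s, f i) = ∑ i ∈ s, j (f i) := by
  classical
  induction s using Finset.induction_on with
  | empty => simp [R.j0]
  | insert a s ha ih => rw [Finset.sum_insert ha, Finset.sum_insert ha, R.jadd, ih]

theorem jrepr (R : RatF q Q j) {n : ℕ} {b : Module.Basis (Fin n) K U}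
    {b' : Module.Basis (Fin n) F V} (hb : ∀ i, b' i = j (b i)) (u : U) (i : Fin n) :
    b'.repr (j u) i = algebraMap K F (b.repr u i) := by
  have h1 : j u = ∑ i, algebraMap K F (b.repr u i) • b' i := by
    conv_lhs => rw [← b.sum_repr u]
    rw [R.jsum]
    exact Finset.sum_congr rfl fun i _ => by rw [R.jsmul, hb]
  have h2 := b'.repr_sum_self (fun i => algebraMap K F (b.repr u i))
  rw [← h1] at h2
  exact congrFun h2 i

theorem jinj (R : RatF q Q j) {u : U} (h : j u = 0) : u = 0 := by
  obtain ⟨n, b, b', hb⟩ := R.ex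
  apply b.repr.injective
  ext i
  apply (algebraMap K F).injective
  rw [← R.jrepr hb, h]
  simp

theorem jne (R : RatF q Q j) {u : U} (h : u ≠ 0) : j u ≠ 0 := fun h' => h (R.jinj h')

theorem jinj' (R : RatF q Q j) {u u' : U} (h : j u = j u') : u = u' := by
  have := R.jinj (u := u - u') (by rw [R.jsub, h, sub_self])
  exact sub_eq_zero.1 this

theorem jspan (R : RatF q Q j) (x : V) : x ∈ Submodule.span F (Set.range j) := by
  obtain ⟨n, b, b', hb⟩ := R.ex
  rw [← b'.sum_repr x]
  refine Submodule.sum_mem _ fun i _ => Submodule.smul_mem _ _ (Submodule.subset_span ?_)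
  rw [hb]; exact ⟨_, rfl⟩

/-- Induction principle: an additive statement closed under scalars. -/
theorem jind (R : RatF q Q j) {P : V → Prop} (h0 : P 0) (hadd : ∀ x y, P x → P y → P (x + y))
    (hsm : ∀ (c : F) (u : U), P (c • j u)) (x : V) : P x := by
  obtain ⟨n, b, b', hb⟩ := R.ex
  rw [← b'.sum_repr x]
  refine Finset.sum_induction _ P hadd h0 fun i _ => ?_
  rw [hb]; exact hsm _ _

theorem jscal (R : RatF q Q j) {c : F} {u u' : U} (hu : u ≠ 0) (h : c • j u = j u') :
    ∃ k : K, algebraMap K F k = c ∧ u' = k • u := by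
  obtain ⟨n, b, b', hb⟩ := R.ex
  have h1 : ∃ i, b.repr u i ≠ 0 := by
    by_contra hcon
    push Not at hcon
    exact hu (b.repr.injective (by ext i; simpa using hcon i))
  obtain ⟨i, hi⟩ := h1
  have h2 : c * algebraMap K F (b.repr u i) = algebraMap K F (b.repr u' i) := by
    rw [← R.jrepr hb, ← R.jrepr hb, ← h]
    simp
  have h3 : algebraMap K F (b.repr u i) ≠ 0 := by
    rw [Ne, map_eq_zero]; exact hi
  refine ⟨b.repr u' i / b.repr u i, ?_, ?_⟩
  · rw [map_div₀, div_eq_iff h3, h2]
  · apply R.jinj'
    rw [R.jsmul, map_div₀, ← h2, mul_div_assoc, div_self h3, mul_one, h]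

theorem jpolar (R : RatF q Q j) (u u' : U) :
    polar Q (j u) (j u') = algebraMap K F (polar q u u') := by
  simp only [polar, ← R.jadd, R.jq, map_sub]

theorem fd (R : RatF q Q j) : FiniteDimensional K U := by
  obtain ⟨n, b, b', hb⟩ := R.ex
  exact b.finiteDimensional_of_finite

theorem fdV (R : RatF q Q j) : FiniteDimensional F V := by
  obtain ⟨n, b, b', hb⟩ := R.ex
  exact b'.finiteDimensional_of_finite

theorem finrank_eq (R : RatF q Q j) : Module.finrank K U = Module.finrank F V := by
  obtain ⟨n, b, b', hb⟩ := R.ex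
  rw [Module.finrank_eq_card_basis b, Module.finrank_eq_card_basis b']

theorem jzero_of_polar (R : RatF q Q j) (hQ : (polarBilin Q).Nondegenerate) {x : V}
    (h : ∀ u, polar Q x (j u) = 0) : x = 0 := by
  refine hQ.1 x fun y => ?_
  rw [pbil]
  refine R.jind (P := fun y => polar Q x y = 0) ?_ ?_ ?_ y
  · exact polar_zero_right Q x
  · intro a b ha hb; rw [par, ha, hb, add_zero]
  · intro c u; rw [psr, h, mul_zero]

theorem nd (R : RatF q Q j) (hQ : (polarBilin Q).Nondegenerate) :
    (polarBilin q).Nondegenerate := by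
  have key : ∀ u, (∀ u', polar q u u' = 0) → u = 0 := by
    intro u hu
    apply R.jinj
    apply R.jzero_of_polar hQ
    intro u'
    rw [R.jpolar, hu, map_zero]
  refine ⟨fun u hu => key u hu, fun u hu => key u fun v => ?_⟩
  rw [pc]; exact hu v

/-- The form is self-dual. -/
theorem jdual (R : RatF q Q j) (hQ : (polarBilin Q).Nondegenerate) {x : V}
    (h : ∀ u, ∃ k : K, polar Q x (j u) = algebraMap K F k) : ∃ u, x = j u := by
  choose ψ hψ using h
  let f : U →ₗ[K] K :=
    { toFun := ψ
      map_add' := by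
        intro u u'
        apply (algebraMap K F).injective
        rw [map_add, ← hψ, ← hψ, ← hψ, R.jadd, par]
      map_smul' := by
        intro k u
        apply (algebraMap K F).injective
        rw [RingHom.id_apply, smul_eq_mul, map_mul, ← hψ, ← hψ, R.jsmul, psr] }
  have := R.fd
  obtain ⟨u0, hu0⟩ := exists_polar_eq (R.nd hQ) f
  refine ⟨u0, sub_eq_zero.1 (R.jzero_of_polar hQ fun u => ?_)⟩
  rw [pdl, R.jpolar, hu0, hψ]
  exact sub_self _

end RatF

end Cfsg.Agent.OMax
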