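import Cfsg.Agent.OMax.SubfieldA

/-!
Overgroups of a rational structure, step B: conjugate structures sharing a singular point are equal.
-/

set_option autoImplicit false
set_option linter.unusedSectionVars false

namespace Cfsg.Agent.OMax

open QuadraticMap Cfsg.Agent.Orth

variable {K F : Type*} [Field K] [Field F] [Algebra K F] {U V : Type*} [AddCommGroup U]
  [Module K U] [AddCommGroup V] [Module F V] {q : QuadraticForm K U} {Q : QuadraticForm F V}
  {j : U → V} {M : Subgroup (OGrp Q)}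

/-- `g` preserves the rational structure up to a scalar. -/
def Pres (j : U → V) (g : OGrp Q) : Prop :=
  ∃ μ : F, μ ≠ 0 ∧ ∀ u : U, ∃ u' : U, (g : V ≃ₗ[F] V) (j u) = μ • j u'

/-- Centres have only rational Siegel elements. -/
def OnlyRat (q : QuadraticForm K U) (j : U → V) (M : Subgroup (OGrp Q)) : Prop :=
  ∀ (e : U) (x : V), q e = 0 → e ≠ 0 → HasE M (j e) x → ∃ (u : U) (s : F), x = j u + s • j e

theorem HasE.tri {a b c : V} {s t : F} (ha : Q a = 0) (hb : Q b = 0) (hc : Q c = 0)
    (hab : polar Q a b = 0) (hac : polar Q a c = 0) (hbc : polar Q b c = 0)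
    (h : HasE M (a + s • c) (b + t • c)) (h' : HasE M a b) : HasE M c (s • b - t • a) := by
  obtain ⟨q1, p1, m1⟩ := h
  obtain ⟨q2, p2, m2⟩ := h'
  have hca : polar Q c a = 0 := by rw [pc]; exact hac
  have hcb : polar Q c b = 0 := by rw [pc]; exact hbc
  have hba : polar Q b a = 0 := by rw [pc]; exact hab
  have haa : polar Q a a = 0 := by rw [pself, ha, mul_zero]
  have hbb : polar Q b b = 0 := by rw [pself, hb, mul_zero]
  have hcc : polar Q c c = 0 := by rw [pself, hc, mul_zero]
  have p3 : polar Q c (s • b - t • a) = 0 := by rw [pdr, psr, psr, hcb, hca]; ring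
  refine ⟨hc, p3, ?_⟩
  have e1 : eich Q c (s • b - t • a) hc p3 =
      (eich Q a b q2 p2)⁻¹ * eich Q (a + s • c) (b + t • c) q1 p1 := by
    rw [eq_inv_mul_iff_mul_eq]
    refine OGrp_ext fun x => ?_
    have hQ1 : Q (s • b - t • a) = 0 := by
      rw [qsub, qsmul, qsmul, ha, hb, psl, psr, hba]; ring
    have hQ2 : Q (b + t • c) = 0 := by
      rw [qadd, qsmul, hb, hc, psr, hbc]; ring
    rw [coe_mul_apply, eich_apply, eich_apply, eich_apply, hQ1, hQ2, hb]
    simp only [pal, pdl, psl, pdr, psr, par, hab, hca, hcb, hba, haa, hbb, zero_mul,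
      zero_smul, sub_zero, mul_zero, add_zero]
    module
  rw [e1]
  exact M.mul_mem (M.inv_mem m2) m1

theorem stepB_perp [Finite K] (R : RatF q Q j) (hQ : (polarBilin Q).Nondegenerate)
    (hn : 11 ≤ Module.finrank F V) (hM : RatM q j M) (hO : OnlyRat q j M) {g : OGrp Q}
    (hg : g ∈ M) {a e : U} (ha : q a = 0) (ha0 : a ≠ 0) {l : F}
    (hge : (g : V ≃ₗ[F] V) (j a) = l • j e) {b : U} (hab : polar q a b = 0) :
    ∃ u, (g : V ≃ₗ[F] V) (j b) = l • j u := by
  have hfd := R.fd
  have hnq := R.nd hQ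
  have hfr := R.finrank_eq
  have hge0 : (g : V ≃ₗ[F] V) (j a) ≠ 0 := by
    intro h
    exact R.jne ha0 ((g : V ≃ₗ[F] V).injective (h.trans (map_zero _).symm))
  have hl : l ≠ 0 := by
    rintro rfl
    rw [zero_smul] at hge
    exact hge0 hge
  have he0 : e ≠ 0 := by
    rintro rfl
    rw [R.j0, smul_zero] at hge
    exact hge0 hge
  have hqe : q e = 0 := by
    have h1 : Q (l • j e) = 0 := by rw [← hge, OGrp_q, R.jq, ha, map_zero]
    rw [qsmul, R.jq] at h1
    have h2 := (mul_eq_zero.1 h1).resolve_left (mul_ne_zero hl hl)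
    rwa [map_eq_zero] at h2
  -- step 1
  have h1 : ∀ b, polar q a b = 0 → ∃ (u : U) (s : F), l • (g : V ≃ₗ[F] V) (j b) = j u + s • j e ∧
      polar q u e = 0 := by
    intro b hb
    have h2 := (hM a b ha hb).conj hg
    rw [hge] at h2
    obtain ⟨u, s, hus⟩ := hO e _ hqe he0 (h2.smul_left hl)
    refine ⟨u, s, hus, ?_⟩
    apply (algebraMap K F).injective
    rw [map_zero, ← R.jpolar]
    have h3 : polar Q (l • (g : V ≃ₗ[F] V) (j b)) (l • j e) = 0 := by
      rw [← hge, psl, OGrp_polar, R.jpolar, pc q b a, hb, map_zero, mul_zero]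
    rw [hus, psr, pal, psl, pself, R.jq, hqe, map_zero, mul_zero, mul_zero, add_zero] at h3
    exact (mul_eq_zero.1 h3).resolve_left hl
  -- step 2
  have h2 : ∃ ν : K, algebraMap K F ν = l * l := by
    obtain ⟨p, p', hp, hp', hpp, hap, -, hap', -⟩ := exists_hyp_perp_pair hnq (by omega) a a
    have hqb : q (p + p') = 1 := by rw [qadd, hp, hp', hpp]; ring
    obtain ⟨u, s, hus, hue⟩ := h1 (p + p') (by rw [par, hap, hap', add_zero])
    refine ⟨q u, ?_⟩
    have h3 : Q (l • (g : V ≃ₗ[F] V) (j (p + p'))) = l * l := by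
      rw [qsmul, OGrp_q, R.jq, hqb, map_one, mul_one]
    rw [hus, qadd, qsmul, psr, R.jq, R.jq, R.jpolar, hqe, hue, map_zero, mul_zero, mul_zero,
      add_zero, add_zero] at h3
    exact h3
  obtain ⟨ν, hν⟩ := h2
  have hν0 : ν ≠ 0 := by
    rintro rfl
    rw [map_zero] at hν
    exact mul_ne_zero hl hl hν.symm
  have hνi : algebraMap K F ν⁻¹ * (l * l) = 1 := by
    rw [← hν, ← map_mul, inv_mul_cancel₀ hν0, map_one]
  -- step 1'
  have h3 : ∀ b, polar q a b = 0 → ∃ (u : U) (s : F), (g : V ≃ₗ[F] V) (j b) = l • (j u + s • j e) ∧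
      polar q u e = 0 := by
    intro b hb
    obtain ⟨u, s, hus, hue⟩ := h1 b hb
    refine ⟨ν⁻¹ • u, algebraMap K F ν⁻¹ * s, ?_, by rw [psl, hue, mul_zero]⟩
    rw [R.jsmul, mul_smul, ← smul_add, ← hus, smul_smul, smul_smul]
    have : l * algebraMap K F ν⁻¹ * l = 1 := by rw [← hνi]; ring
    rw [this, one_smul]
  -- step 3
  have h4 : ∀ b, q b = 0 → polar q a b = 0 → b ∉ Submodule.span K {a} →
      ∃ u, (g : V ≃ₗ[F] V) (j b) = l • j u := by
    intro b hqb hab hba
    obtain ⟨d, d', hd, hd', hdd, had, hbd, had', hbd'⟩ := exists_hyp_perp_pair hnq (by omega) a b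
    obtain ⟨u, s, hus, hue⟩ := h3 b hab
    obtain ⟨u', s', hus', hue'⟩ := h3 d had
    have hqu : q u = 0 := by
      apply (algebraMap K F).injective
      have : Q (l • (j u + s • j e)) = 0 := by rw [← hus, OGrp_q, R.jq, hqb, map_zero]
      rw [qsmul] at this
      have := (mul_eq_zero.1 this).resolve_left (mul_ne_zero hl hl)
      rw [qadd, qsmul, psr, R.jq, R.jq, R.jpolar, hqe, hue, map_zero, mul_zero, mul_zero,
        add_zero, add_zero] at this
      rw [this, map_zero]
    have hqu' : q u' = 0 := by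
      apply (algebraMap K F).injective
      have : Q (l • (j u' + s' • j e)) = 0 := by rw [← hus', OGrp_q, R.jq, hd, map_zero]
      rw [qsmul] at this
      have := (mul_eq_zero.1 this).resolve_left (mul_ne_zero hl hl)
      rw [qadd, qsmul, psr, R.jq, R.jq, R.jpolar, hqe, hue', map_zero, mul_zero, mul_zero,
        add_zero, add_zero] at this
      rw [this, map_zero]
    have huu : polar q u u' = 0 := by
      apply (algebraMap K F).injective
      have : polar Q (l • (j u + s • j e)) (l • (j u' + s' • j e)) = 0 := by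
        rw [← hus, ← hus', OGrp_polar, R.jpolar, hbd, map_zero]
      rw [psl, psr] at this
      have := (mul_eq_zero.1 ((mul_eq_zero.1 this).resolve_left hl)).resolve_left hl
      rw [pal, par, par, psl, psr, psl, psr, R.jpolar, R.jpolar, R.jpolar, R.jpolar, hue,
        pc q e u', hue', pself, hqe] at this
      simpa using this
    have hE1 : HasE M (j u + s • j e) (j u' + s' • j e) := by
      have h5 := (hM b (ν⁻¹ • d) hqb (by rw [psr, hbd, mul_zero])).conj hg
      rw [R.jsmul, map_smul, hus, hus'] at h5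
      have h6 := h5.smul_left hl
      rw [smul_smul, smul_smul] at h6
      have : l * algebraMap K F ν⁻¹ * l = 1 := by rw [← hνi]; ring
      rw [this, one_smul] at h6
      exact h6
    have hE2 : HasE M (j u) (j u') := hM u u' hqu huu
    have hE3 : HasE M (j e) (s • j u' - s' • j u) :=
      HasE.tri (by rw [R.jq, hqu, map_zero]) (by rw [R.jq, hqu', map_zero])
        (by rw [R.jq, hqe, map_zero]) (by rw [R.jpolar, huu, map_zero])
        (by rw [R.jpolar, hue, map_zero]) (by rw [R.jpolar, hue', map_zero]) hE1 hE2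
    obtain ⟨u2, t, hu2⟩ := hO e _ hqe he0 hE3
    have hnot : u' ∉ Submodule.span K {u, e} := by
      intro hmem
      obtain ⟨α, β, hαβ⟩ := Submodule.mem_span_pair.1 hmem
      have h5 : (g : V ≃ₗ[F] V) (j d) = (g : V ≃ₗ[F] V) (algebraMap K F α • j b +
          (algebraMap K F β + s' - algebraMap K F α * s) • j a) := by
        rw [map_add, map_smul, map_smul, hus, hge, hus', ← hαβ, R.jadd, R.jsmul, R.jsmul]
        module
      have h6 := (g : V ≃ₗ[F] V).injective h5
      have h7 : polar Q (j d) (j d') = 1 := by rw [R.jpolar, hdd, map_one]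
      rw [h6, pal, psl, psl, R.jpolar, R.jpolar, hbd', had', map_zero, mul_zero, mul_zero,
        add_zero] at h7
      exact zero_ne_one h7
    obtain ⟨w, hw, hw1⟩ := exists_ortho_not hnq (Submodule.span K {u, e}) hnot
    have hwu : polar q w u = 0 := hw u (Submodule.subset_span (by simp))
    have hwe : polar q w e = 0 := hw e (Submodule.subset_span (by simp))
    have h5 : s = algebraMap K F (polar q w u2) := by
      have h6 : polar Q (j w) (s • j u' - s' • j u) = s := by
        rw [pdr, psr, psr, R.jpolar, R.jpolar, hw1, hwu, map_one, map_zero]; ring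
      rw [← h6, hu2, par, psr, R.jpolar, R.jpolar, hwe, map_zero, mul_zero, add_zero]
    refine ⟨u + polar q w u2 • e, ?_⟩
    rw [hus, R.jadd, R.jsmul, ← h5]
  -- step 4
  obtain ⟨p, p', hp, hp', hpp, hap, -, hap', -⟩ := exists_hyp_perp_pair hnq (by omega) a a
  have hpa : p ∉ Submodule.span K {a} := by
    intro hmem
    obtain ⟨k, rfl⟩ := Submodule.mem_span_singleton.1 hmem
    rw [psl, hap', mul_zero] at hpp
    exact zero_ne_one hpp
  have hpa' : p' ∉ Submodule.span K {a} := by
    intro hmem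
    obtain ⟨k, rfl⟩ := Submodule.mem_span_singleton.1 hmem
    rw [psr, pc q p a, hap, mul_zero] at hpp
    exact zero_ne_one hpp
  obtain ⟨x, hx, hqx, α, β, rfl⟩ := sing_sum (E := perp q (Submodule.span K {a})) (q := q)
    (p := p) (p' := p') (w := b)
    (fun s hs => by
      obtain ⟨l, rfl⟩ := Submodule.mem_span_singleton.1 hs
      change polar q (l • a) p = 0
      rw [psl, hap, mul_zero])
    (fun s hs => by
      obtain ⟨l, rfl⟩ := Submodule.mem_span_singleton.1 hs
      change polar q (l • a) p' = 0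
      rw [psl, hap', mul_zero]) hp hp' hpp
    (fun s hs => by
      obtain ⟨l, rfl⟩ := Submodule.mem_span_singleton.1 hs
      change polar q (l • a) b = 0
      rw [psl, hab, mul_zero])
  have hax : polar q a x = 0 := hx a (Submodule.mem_span_singleton_self a)
  obtain ⟨u1, hu1⟩ := h4 p hp hap hpa
  obtain ⟨u2, hu2⟩ := h4 p' hp' hap' hpa'
  have hx3 : ∃ u3, (g : V ≃ₗ[F] V) (j x) = l • j u3 := by
    by_cases hxa : x ∈ Submodule.span K {a}
    · obtain ⟨k, rfl⟩ := Submodule.mem_span_singleton.1 hxa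
      refine ⟨k • e, ?_⟩
      rw [R.jsmul, R.jsmul, map_smul, hge, smul_comm]
    · exact h4 x hqx hax hxa
  obtain ⟨u3, hu3⟩ := hx3
  refine ⟨u3 + α • u1 + β • u2, ?_⟩
  simp only [R.jadd, R.jsmul, map_add, map_smul, hu1, hu2, hu3]
  module

/-- **Step B**, exact form. -/
theorem stepB_exact [Finite K] (R : RatF q Q j) (hQ : (polarBilin Q).Nondegenerate)
    (hn : 11 ≤ Module.finrank F V) (hM : RatM q j M) (hO : OnlyRat q j M) {g : OGrp Q}
    (hg : g ∈ M) {a e : U} (ha : q a = 0) (ha0 : a ≠ 0) {l : F}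
    (hge : (g : V ≃ₗ[F] V) (j a) = l • j e) :
    l ≠ 0 ∧ ∀ u : U, ∃ u' : U, (g : V ≃ₗ[F] V) (j u) = l • j u' := by
  have hfd := R.fd
  have hnq := R.nd hQ
  have hfr := R.finrank_eq
  have hge0 : (g : V ≃ₗ[F] V) (j a) ≠ 0 := by
    intro h
    exact R.jne ha0 ((g : V ≃ₗ[F] V).injective (h.trans (map_zero _).symm))
  have hl : l ≠ 0 := by
    rintro rfl
    rw [zero_smul] at hge
    exact hge0 hge
  refine ⟨hl, fun v => ?_⟩
  obtain ⟨p, p', hp, hp', hpp, hap, -, hap', -⟩ := exists_hyp_perp_pair hnq (by omega) a a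
  have hp0 : p ≠ 0 := by
    rintro rfl
    rw [polar_zero_left] at hpp
    exact zero_ne_one hpp
  obtain ⟨u1, hu1⟩ := stepB_perp R hQ hn hM hO hg ha ha0 hge hap
  have hnot : a ∉ Submodule.span K {p} := by
    intro hmem
    obtain ⟨k, rfl⟩ := Submodule.mem_span_singleton.1 hmem
    rw [psl, hpp, mul_one] at hap'
    apply ha0
    rw [hap', zero_smul]
  obtain ⟨z, hz, hza⟩ := exists_ortho_not hnq (Submodule.span K {p}) hnot
  have hzp : polar q z p = 0 := hz p (Submodule.mem_span_singleton_self p)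
  obtain ⟨u2, hu2⟩ := stepB_perp R hQ hn hM hO hg hp hp0 hu1 (b := z) (by rw [pc, hzp])
  obtain ⟨u3, hu3⟩ := stepB_perp R hQ hn hM hO hg ha ha0 hge (b := v - polar q v a • z) (by
    rw [pdr, psr, pc q a z, hza, pc q a v]; ring)
  refine ⟨u3 + polar q v a • u2, ?_⟩
  rw [R.jadd, R.jsmul, smul_add, ← hu3, smul_comm, ← hu2, R.jsub, R.jsmul, map_sub, map_smul]
  module

/-- **Step B.** -/
theorem stepB [Finite K] (R : RatF q Q j) (hQ : (polarBilin Q).Nondegenerate)
    (hn : 11 ≤ Module.finrank F V) (hM : RatM q j M) (hO : OnlyRat q j M) {g : OGrp Q}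
    (hg : g ∈ M) {a e : U} (ha : q a = 0) (ha0 : a ≠ 0) {l : F}
    (hge : (g : V ≃ₗ[F] V) (j a) = l • j e) : Pres j g :=
  ⟨l, stepB_exact R hQ hn hM hO hg ha ha0 hge⟩

theorem stepB_sq [Finite K] (R : RatF q Q j) (hQ : (polarBilin Q).Nondegenerate)
    (hn : 11 ≤ Module.finrank F V) (hM : RatM q j M) (hO : OnlyRat q j M) {g : OGrp Q}
    (hg : g ∈ M) {a e : U} (ha : q a = 0) (ha0 : a ≠ 0) {l : F}
    (hge : (g : V ≃ₗ[F] V) (j a) = l • j e) : ∃ ν : K, algebraMap K F ν = l * l := by
  have hfd := R.fd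
  have hnq := R.nd hQ
  have hfr := R.finrank_eq
  obtain ⟨hl, h⟩ := stepB_exact R hQ hn hM hO hg ha ha0 hge
  obtain ⟨p, p', hp, hp', hpp, -⟩ := exists_hyp_perp_pair hnq (by omega) a a
  obtain ⟨u, hu⟩ := h (p + p')
  have h1 : Q ((g : V ≃ₗ[F] V) (j (p + p'))) = 1 := by
    rw [OGrp_q, R.jq, qadd, hp, hp', hpp, zero_add, zero_add, map_one]
  rw [hu, qsmul, R.jq] at h1
  refine ⟨(q u)⁻¹, ?_⟩
  rw [map_inv₀]
  exact (eq_inv_of_mul_eq_one_left h1).symm

end Cfsg.Agent.OMax
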