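import Cfsg.Agent.OMax.SubfieldB
import Cfsg.Agent.OMax.P1Count
import Cfsg.Agent.Orth.MaxSing

/-!
Overgroups of a rational structure, step C: two distinct conjugate structures give a plane on which
`M` induces a group contradicting the fixed point count.
-/

set_option autoImplicit false
set_option linter.unusedSectionVars false

namespace Cfsg.Agent.OMax

open QuadraticMap Cfsg.Agent.Orth

variable {K F : Type*} [Field K] [Field F] [Algebra K F] {U V : Type*} [AddCommGroup U]
  [Module K U] [AddCommGroup V] [Module F V] {q : QuadraticForm K U} {Q : QuadraticForm F V}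
  {j : U → V} {M : Subgroup (OGrp Q)}

theorem eich_pow {v c : V} (hv : Q v = 0) (hvc : polar Q v c = 0) (k : ℕ) :
    ∃ h, (eich Q v c hv hvc) ^ k = eich Q v (k • c) hv h := by
  induction k with
  | zero =>
    refine ⟨by rw [zero_smul, polar_zero_right], ?_⟩
    rw [pow_zero]
    refine OGrp_ext fun x => ?_
    rw [eich_apply, coe_one_apply]
    simp
  | succ k ih =>
    obtain ⟨h, hk⟩ := ih
    refine ⟨by rw [succ_nsmul, par, h, hvc, add_zero], ?_⟩
    rw [pow_succ, hk, eich_mul]
    congr 1
    rw [succ_nsmul]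

/-- A Siegel element preserving the rational structure up to a scalar preserves it. -/
theorem pres_eich [Finite K] [Finite F] (R : RatF q Q j) {v c : V} (hv : Q v = 0)
    (hvc : polar Q v c = 0) (hU : ∃ u : U, u ≠ 0) (hP : Pres j (eich Q v c hv hvc)) (u : U) :
    ∃ u', (eich Q v c hv hvc : V ≃ₗ[F] V) (j u) = j u' := by
  obtain ⟨p, hp⟩ := CharP.exists F
  have hpp : p.Prime := by
    rcases CharP.char_is_prime_or_zero F p with h | h
    · exact h
    · subst h
      exact absurd (CharP.charP_to_charZero F) (fun h => by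
        have := Fintype.ofFinite F
        exact not_finite F)
  have : Fact p.Prime := ⟨hpp⟩
  have hpK : CharP K p := (RingHom.charP_iff (algebraMap K F) (algebraMap K F).injective p).2 hp
  obtain ⟨μ, hμ, hP⟩ := hP
  -- powers
  have hpow : ∀ (k : ℕ) (u : U), ∃ u', ((eich Q v c hv hvc ^ k : OGrp Q) : V ≃ₗ[F] V) (j u) =
      μ ^ k • j u' := by
    intro k
    induction k with
    | zero => intro u; exact ⟨u, by rw [pow_zero, coe_one_apply, pow_zero, one_smul]⟩
    | succ k ih =>
      intro u
      obtain ⟨u1, hu1⟩ := hP u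
      obtain ⟨u2, hu2⟩ := ih u1
      refine ⟨u2, ?_⟩
      rw [pow_succ, coe_mul_apply, hu1, map_smul, hu2, smul_smul, pow_succ, mul_comm μ]
  obtain ⟨u0, hu0⟩ := hU
  obtain ⟨u1, hu1⟩ := hpow p u0
  obtain ⟨h, hk⟩ := eich_pow hv hvc p
  have hpc : p • c = 0 := by
    rw [← Nat.cast_smul_eq_nsmul F, CharP.cast_eq_zero, zero_smul]
  have hone : ((eich Q v c hv hvc ^ p : OGrp Q) : V ≃ₗ[F] V) (j u0) = j u0 := by
    rw [hk, eich_apply, hpc]
    simp
  rw [hone] at hu1
  have hu10 : u1 ≠ 0 := by
    rintro rfl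
    rw [R.j0, smul_zero] at hu1
    exact R.jne hu0 hu1
  obtain ⟨k, hk1, -⟩ := R.jscal hu10 hu1.symm
  obtain ⟨k', hk'⟩ : ∃ k' : K, k' ^ p = k := by
    have hinj : Function.Injective (frobenius K p) := (frobenius K p).injective
    obtain ⟨k', hk'⟩ := (Finite.injective_iff_surjective.1 hinj) k
    exact ⟨k', hk'⟩
  have hμk : μ = algebraMap K F k' := by
    apply (frobenius F p).injective
    rw [frobenius_def, frobenius_def, ← map_pow, hk', hk1]
  obtain ⟨u', hu'⟩ := hP u
  exact ⟨k' • u', by rw [hu', R.jsmul, hμk]⟩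

/-- **Lemma L.** -/
theorem centre_rational [Finite K] [Finite F] (R : RatF q Q j)
    (hQ : (polarBilin Q).Nondegenerate) {v c : V} (hv : Q v = 0) (hv0 : v ≠ 0)
    (hvc : polar Q v c = 0) (hc : Q c ≠ 0) (hP : Pres j (eich Q v c hv hvc)) :
    ∃ (x : U) (s : F), x ≠ 0 ∧ v = s • j x := by
  have hw : ∃ w, polar Q v (j w) ≠ 0 := by
    by_contra hcon
    push Not at hcon
    exact hv0 (R.jzero_of_polar hQ hcon)
  obtain ⟨w, hw⟩ := hw
  have hU : ∃ u : U, u ≠ 0 := ⟨w, by rintro rfl; rw [R.j0, polar_zero_right] at hw; exact hw rfl⟩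
  have hpr := pres_eich R hv hvc hU hP
  have fin : ∀ (x : U) (t : F), t ≠ 0 → j x = t • v → ∃ (x : U) (s : F), x ≠ 0 ∧ v = s • j x := by
    intro x t ht hx
    refine ⟨x, t⁻¹, ?_, ?_⟩
    · rintro rfl
      rw [R.j0] at hx
      rcases smul_eq_zero.1 hx.symm with h | h
      · exact ht h
      · exact hv0 h
    · rw [hx, smul_smul, inv_mul_cancel₀ ht, one_smul]
  by_cases h2 : (2 : F) = 0
  · -- characteristic two
    have hcc : polar Q c c = 0 := by rw [pself, h2, zero_mul]
    have hvv : polar Q v v = 0 := by rw [pself, hv, mul_zero]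
    have hcv : polar Q c v = 0 := by rw [pc]; exact hvc
    have hz : ∀ u, ∃ x, j x = (polar Q (j u) c - Q c * polar Q (j u) v) • v -
        polar Q (j u) v • c := by
      intro u
      obtain ⟨u', hu'⟩ := hpr u
      refine ⟨u' - u, ?_⟩
      rw [R.jsub, ← hu', eich_apply]
      module
    obtain ⟨x1, hx1⟩ := hz w
    have hw' : polar Q (j w) v ≠ 0 := by rw [pc]; exact hw
    set A1 := polar Q (j w) c - Q c * polar Q (j w) v with hA1
    set P1 := polar Q (j w) v with hP1
    have hne : P1 • c - (A1 + P1 * Q c) • v ≠ 0 := by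
      intro h
      have h3 : Q (P1 • c) = Q ((A1 + P1 * Q c) • v) := by rw [sub_eq_zero.1 h]
      rw [qsmul, qsmul, hv, mul_zero] at h3
      exact (mul_ne_zero (mul_ne_zero hw' hw') hc) h3
    have hu2 : ∃ u2, polar Q (P1 • c - (A1 + P1 * Q c) • v) (j u2) ≠ 0 := by
      by_contra hcon
      push Not at hcon
      exact hne (R.jzero_of_polar hQ hcon)
    obtain ⟨u2, hu2⟩ := hu2
    obtain ⟨x2, hx2⟩ := hz u2
    set A2 := polar Q (j u2) c - Q c * polar Q (j u2) v with hA2
    set P2 := polar Q (j u2) v with hP2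
    have hdet : P1 * A2 - A1 * P2 ≠ 0 := by
      rw [pdl, psl, psl, pc Q c, pc Q v] at hu2
      intro h
      apply hu2
      rw [← h, hA2, hP2]
      ring
    have hq1 : algebraMap K F (q x1) = P1 * P1 * Q c := by
      rw [← R.jq, hx1, qsub, qsmul, qsmul, hv, psl, psr, hvc]; ring
    have hq2 : algebraMap K F (q x2) = P2 * P2 * Q c := by
      rw [← R.jq, hx2, qsub, qsmul, qsmul, hv, psl, psr, hvc]; ring
    have hq10 : q x1 ≠ 0 := by
      intro h
      rw [h, map_zero] at hq1
      exact (mul_ne_zero (mul_ne_zero hw' hw') hc) hq1.symm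
    -- perfectness of `K`
    have h2K : (2 : K) = 0 := by
      apply (algebraMap K F).injective
      rw [map_ofNat, h2, map_zero]
    obtain ⟨α, hα⟩ : ∃ α : K, α * α = q x2 / q x1 := by
      have hinj : Function.Injective (fun α : K => α * α) := by
        intro α β hαβ
        have h3 : (α - β) * (α - β) = 0 := by
          have : (α - β) * (α - β) = α * α - β * β - 2 * (β * (α - β)) := by ring
          rw [this, h2K, zero_mul, sub_zero]
          exact sub_eq_zero.2 hαβ
        exact sub_eq_zero.1 (mul_self_eq_zero.1 h3)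
      exact (Finite.injective_iff_surjective.1 hinj) _
    have hα' : algebraMap K F α * P1 + P2 = 0 := by
      have h3 : (algebraMap K F α * P1 + P2) * (algebraMap K F α * P1 + P2) * Q c = 0 := by
        have h4 : algebraMap K F α * algebraMap K F α * algebraMap K F (q x1) =
            algebraMap K F (q x2) := by
          rw [← map_mul, ← map_mul, hα, div_mul_cancel₀ _ hq10]
        rw [hq1, hq2] at h4
        have h5 : (algebraMap K F α * P1 + P2) * (algebraMap K F α * P1 + P2) * Q c =
          algebraMap K F α * algebraMap K F α * (P1 * P1 * Q c) + P2 * P2 * Q c +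
            2 * (algebraMap K F α * P1 * P2 * Q c) := by ring
        rw [h5, h4, h2, zero_mul, add_zero, ← two_mul, h2, zero_mul]
      have h4 := (mul_eq_zero.1 h3).resolve_right hc
      exact mul_self_eq_zero.1 h4
    refine fin (α • x1 + x2) (algebraMap K F α * A1 + A2) ?_ ?_
    · intro h
      apply hdet
      have h3 : P2 = -(algebraMap K F α * P1) := by linear_combination hα'
      have h4 : A2 = -(algebraMap K F α * A1) := by linear_combination h
      rw [h3, h4]; ring
    · rw [R.jadd, R.jsmul, hx1, hx2]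
      have h3 : P2 = -(algebraMap K F α * P1) := by linear_combination hα'
      rw [h3]
      module
  · -- odd characteristic
    obtain ⟨w1, hw1⟩ := hpr w
    obtain ⟨w2, hw2⟩ := hpr w1
    obtain ⟨h, hk⟩ := eich_pow hv hvc 2
    have h3 : ((eich Q v c hv hvc ^ 2 : OGrp Q) : V ≃ₗ[F] V) (j w) = j w2 := by
      rw [pow_two, coe_mul_apply, hw1, hw2]
    rw [hk] at h3
    refine fin (w2 - (2 : K) • w1 + w) (-(2 * Q c * polar Q (j w) v)) ?_ ?_
    · rw [neg_ne_zero]
      refine mul_ne_zero (mul_ne_zero h2 hc) ?_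
      rw [pc]; exact hw
    · rw [R.jadd, R.jsub, R.jsmul, ← h3, ← hw1, eich_apply, eich_apply, map_ofNat]
      have e1 : (2 : ℕ) • c = (2 : F) • c := by
        rw [← Nat.cast_smul_eq_nsmul F]; norm_num
      rw [e1, psr, qsmul]
      module

end Cfsg.Agent.OMax
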