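import Cfsg.Agent.OMax.SubfieldC

/-!
Overgroups of a rational structure: conclusion.
-/

set_option autoImplicit false
set_option linter.unusedSectionVars false

namespace Cfsg.Agent.OMax

open QuadraticMap Cfsg.Agent.Orth

variable {K F : Type*} [Field K] [Field F] [Algebra K F] {U V : Type*} [AddCommGroup U]
  [Module K U] [AddCommGroup V] [Module F V] {q : QuadraticForm K U} {Q : QuadraticForm F V}
  {j : U → V} {M : Subgroup (OGrp Q)}

theorem Pres.mul {g h : OGrp Q} (hg : Pres j g) (hh : Pres j h) :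
    Pres j (g * h) := by
  obtain ⟨μ, hμ, hg⟩ := hg
  obtain ⟨ν, hν, hh⟩ := hh
  refine ⟨ν * μ, mul_ne_zero hν hμ, fun u => ?_⟩
  obtain ⟨u1, hu1⟩ := hh u
  obtain ⟨u2, hu2⟩ := hg u1
  exact ⟨u2, by rw [coe_mul_apply, hu1, map_smul, hu2, smul_smul]⟩

theorem stepB' [Finite K] (R : RatF q Q j) (hQ : (polarBilin Q).Nondegenerate)
    (hn : 11 ≤ Module.finrank F V) (hM : RatM q j M) (hO : OnlyRat q j M) {g : OGrp Q}
    (hg : g ∈ M) {a : U} (ha : q a = 0) (ha0 : a ≠ 0) {v : V} (hv : (g : V ≃ₗ[F] V) (j a) = v)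
    (hc : ∃ (x : U) (s : F), x ≠ 0 ∧ v = s • j x) : Pres j g := by
  obtain ⟨x, s, -, hx⟩ := hc
  exact stepB R hQ hn hM hO hg ha ha0 (hv.trans hx)

/-- **C1**: a perpendicular pair. -/
theorem exists_perp_pair [Finite K] [Finite F] (R : RatF q Q j)
    (hQ : (polarBilin Q).Nondegenerate)
    (hn : 11 ≤ Module.finrank F V) (hM : RatM q j M) (hO : OnlyRat q j M) {g1 : OGrp Q}
    (hg1 : g1 ∈ M) (hP : ¬ Pres j g1) :
    ∃ g ∈ M, ∃ a e : U, q a = 0 ∧ a ≠ 0 ∧ q e = 0 ∧ e ≠ 0 ∧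
      polar Q ((g : V ≃ₗ[F] V) (j a)) (j e) = 0 ∧ ¬ Pres j g := by
  have hfd := R.fd
  have hfdV := R.fdV
  have hnq := R.nd hQ
  have hfr := R.finrank_eq
  obtain ⟨v0, hv0, hqv0⟩ := exists_singular hnq (by omega)
  obtain ⟨p, p', hp, hp', hpp, hap, -, hap', -⟩ := exists_hyp_perp_pair hnq (by omega) v0 v0
  by_contra hcon
  push Not at hcon
  -- long root elements are `Pres`
  have hlong : ∀ c : U, q c = 0 → ∀ hc : polar q v0 c = 0,
      ∃ (h1 : Q ((g1 : V ≃ₗ[F] V) (j v0)) = 0)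
        (h2 : polar Q ((g1 : V ≃ₗ[F] V) (j v0)) ((g1 : V ≃ₗ[F] V) (j c)) = 0),
        Pres j (eich Q _ _ h1 h2) := by
    intro c hqc hc
    obtain ⟨h1, h2, h3⟩ := (hM v0 c hqv0 hc).conj hg1
    refine ⟨h1, h2, hcon _ h3 v0 v0 hqv0 hv0 hqv0 hv0 ?_⟩
    have hQc : Q ((g1 : V ≃ₗ[F] V) (j c)) = 0 := by rw [OGrp_q, R.jq, hqc, map_zero]
    rw [eich_apply, hQc, zero_mul, zero_smul, sub_zero, pdl, pal, psl, psl, pself, R.jq, hqv0,
      map_zero, pc Q (j v0) ((g1 : V ≃ₗ[F] V) (j c)), pc Q (j v0) ((g1 : V ≃ₗ[F] V) (j v0))]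
    ring
  obtain ⟨h1, h2, h3⟩ := hlong p hp hap
  obtain ⟨h1', h2', h3'⟩ := hlong p' hp' hap'
  have h4 := Pres.mul h3 h3'
  rw [eich_mul] at h4
  have hc0 : Q ((g1 : V ≃ₗ[F] V) (j p) + (g1 : V ≃ₗ[F] V) (j p')) ≠ 0 := by
    rw [← map_add, OGrp_q, ← R.jadd, R.jq, qadd, hp, hp', hpp, zero_add, zero_add, map_one]
    exact one_ne_zero
  have hv : (g1 : V ≃ₗ[F] V) (j v0) ≠ 0 := by
    intro h
    exact R.jne hv0 ((g1 : V ≃ₗ[F] V).injective (h.trans (map_zero _).symm))
  exact hP (stepB' R hQ hn hM hO hg1 hqv0 hv0 rfl (centre_rational R hQ h1 hv _ hc0 h4))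

/-- **C2 (i)**. -/
theorem perp_singular [Finite K] [Finite F] (R : RatF q Q j)
    (hQ : (polarBilin Q).Nondegenerate)
    (hn : 11 ≤ Module.finrank F V) (hM : RatM q j M) (hO : OnlyRat q j M) {g : OGrp Q}
    (hg : g ∈ M) (hP : ¬ Pres j g) {a e : U} (ha : q a = 0) (ha0 : a ≠ 0) (he : q e = 0)
    (he0 : e ≠ 0) (hae : polar Q ((g : V ≃ₗ[F] V) (j a)) (j e) = 0) {c : U}
    (hac : polar q a c = 0) (hce : polar Q ((g : V ≃ₗ[F] V) (j c)) (j e) = 0) : q c = 0 := by
  by_contra hqc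
  obtain ⟨h1, h2, h3⟩ := (hM a c ha hac).conj hg
  have hfix : (eich Q _ _ h1 h2 : V ≃ₗ[F] V) (j e) = (1 : F) • j e := by
    rw [one_smul]
    exact eich_fix h1 h2 (by rw [pc]; exact hae) (by rw [pc]; exact hce)
  have h4 := stepB R hQ hn hM hO h3 he he0 hfix
  have hv : (g : V ≃ₗ[F] V) (j a) ≠ 0 := by
    intro h
    exact R.jne ha0 ((g : V ≃ₗ[F] V).injective (h.trans (map_zero _).symm))
  have hQc : Q ((g : V ≃ₗ[F] V) (j c)) ≠ 0 := by
    rw [OGrp_q, R.jq]
    intro h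
    exact hqc ((map_eq_zero _).1 h)
  exact hP (stepB' R hQ hn hM hO hg ha ha0 rfl (centre_rational R hQ h1 hv h2 hQc h4))

/-- The set of values of a linear functional is large. -/
theorem card_values [Finite K] [Finite F] (R : RatF q Q j) (hQ : (polarBilin Q).Nondegenerate)
    (hn : 11 ≤ Module.finrank F V) {a : U} (ha0 : a ≠ 0) {φ : U → F}
    (hadd : ∀ u v, φ (u + v) = φ u + φ v) (hsm : ∀ (k : K) u, φ (k • u) = algebraMap K F k * φ u)
    (hker : ∀ u, polar q a u = 0 → φ u = 0 → q u = 0) (T : Finset F)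
    (hT : ∀ u, polar q a u = 0 → φ u ∈ T) : Nat.card K ^ 5 ≤ T.card := by
  have hfd := R.fd
  have hfdV := R.fdV
  have hnq := R.nd hQ
  have hfr := R.finrank_eq
  have : Module.Finite K F := Module.Finite.of_finite
  let f : U →ₗ[K] F :=
    { toFun := φ
      map_add' := hadd
      map_smul' := fun k u => by rw [hsm, Algebra.smul_def]; rfl }
  set W := perp q (Submodule.span K {a}) with hW
  have hWd : Module.finrank K W + 1 = Module.finrank K U := by
    have h1 := finrank_perp hnq (Submodule.span K {a})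
    rw [finrank_span_singleton ha0] at h1
    exact h1
  have hmemW : ∀ u, u ∈ W → polar q a u = 0 :=
    fun u hu => hu a (Submodule.mem_span_singleton_self a)
  let fW := f.domRestrict W
  have hrn := LinearMap.finrank_range_add_finrank_ker fW
  have hkd : 2 * Module.finrank K (LinearMap.ker fW) ≤ Module.finrank K U := by
    have hTS : TS q ((LinearMap.ker fW).map W.subtype) := by
      rintro _ ⟨u, hu, rfl⟩
      exact hker _ (hmemW _ u.2) hu
    have h1 : Module.finrank K ((LinearMap.ker fW).map W.subtype) =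
        Module.finrank K (LinearMap.ker fW) :=
      Submodule.finrank_map_subtype_eq _ _
    have h2 := finrank_perp hnq ((LinearMap.ker fW).map W.subtype)
    have h3 := Submodule.finrank_mono hTS.le_perp
    omega
  have h5 : 5 ≤ Module.finrank K (LinearMap.range fW) := by omega
  have hcard : Nat.card (LinearMap.range fW) = Nat.card K ^ Module.finrank K (LinearMap.range fW) :=
    Module.natCard_eq_pow_finrank (K := K)
  have hle : Nat.card (LinearMap.range fW) ≤ T.card := by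
    have : ((LinearMap.range fW : Submodule K F) : Set F) ⊆ (T : Set F) := by
      rintro _ ⟨u, rfl⟩
      exact hT _ (hmemW _ u.2)
    have h6 := Set.ncard_le_ncard this T.finite_toSet
    rwa [Set.ncard_coe_finset] at h6
  refine le_trans ?_ hle
  rw [hcard]
  exact Nat.pow_le_pow_right Nat.card_pos h5

/-- The group induced by `M` on a plane, up to sign. -/
def PlaneGrp (M : Subgroup (OGrp Q)) (x y : V) :
    Subgroup (Matrix.SpecialLinearGroup (Fin 2) F) where
  carrier := {A | ∃ h ∈ M, ∃ ε : F, ε * ε = 1 ∧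
    (h : V ≃ₗ[F] V) x = ε • (A 0 0 • x + A 1 0 • y) ∧
    (h : V ≃ₗ[F] V) y = ε • (A 0 1 • x + A 1 1 • y)}
  mul_mem' := by
    rintro A B ⟨h, hh, ε, hε, h1, h2⟩ ⟨h', hh', ε', hε', h3, h4⟩
    refine ⟨h * h', M.mul_mem hh hh', ε * ε', ?_, ?_, ?_⟩
    · rw [mul_mul_mul_comm, hε, hε', one_mul]
    · rw [coe_mul_apply, h3, map_smul, map_add, map_smul, map_smul, h1, h2, sl2_mul, sl2_mul]
      module
    · rw [coe_mul_apply, h4, map_smul, map_add, map_smul, map_smul, h1, h2, sl2_mul, sl2_mul]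
      module
  one_mem' := by
    refine ⟨1, M.one_mem, 1, one_mul 1, ?_, ?_⟩
    · rw [coe_one_apply]
      simp
    · rw [coe_one_apply]
      simp
  inv_mem' := by
    rintro A ⟨h, hh, ε, hε, h1, h2⟩
    have hdet := sl2_det A
    have e00 : (A⁻¹ : Matrix.SpecialLinearGroup (Fin 2) F) 0 0 = A 1 1 := by
      rw [Matrix.SpecialLinearGroup.SL2_inv_expl]; rfl
    have e01 : (A⁻¹ : Matrix.SpecialLinearGroup (Fin 2) F) 0 1 = -A 0 1 := by
      rw [Matrix.SpecialLinearGroup.SL2_inv_expl]; rfl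
    have e10 : (A⁻¹ : Matrix.SpecialLinearGroup (Fin 2) F) 1 0 = -A 1 0 := by
      rw [Matrix.SpecialLinearGroup.SL2_inv_expl]; rfl
    have e11 : (A⁻¹ : Matrix.SpecialLinearGroup (Fin 2) F) 1 1 = A 0 0 := by
      rw [Matrix.SpecialLinearGroup.SL2_inv_expl]; rfl
    refine ⟨h⁻¹, M.inv_mem hh, ε, hε, ?_, ?_⟩
    · apply (h : V ≃ₗ[F] V).injective
      rw [coe_apply_inv_self, map_smul, map_add, map_smul, map_smul, h1, h2, e00, e10]
      have : ε • (A 1 1 • ε • (A 0 0 • x + A 1 0 • y) + -A 1 0 • ε • (A 0 1 • x + A 1 1 • y)) =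
        ((ε * ε) * (A 0 0 * A 1 1 - A 0 1 * A 1 0)) • x := by module
      rw [this, hε, hdet, one_mul, one_smul]
    · apply (h : V ≃ₗ[F] V).injective
      rw [coe_apply_inv_self, map_smul, map_add, map_smul, map_smul, h1, h2, e01, e11]
      have : ε • (-A 0 1 • ε • (A 0 0 • x + A 1 0 • y) + A 0 0 • ε • (A 0 1 • x + A 1 1 • y)) =
        ((ε * ε) * (A 0 0 * A 1 1 - A 0 1 * A 1 0)) • y := by module
      rw [this, hε, hdet, one_mul, one_smul]

/-- **Step C.** -/
theorem stepC [Finite K] [Finite F] (R : RatF q Q j)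
    (hQ : (polarBilin Q).Nondegenerate)
    (hn : 11 ≤ Module.finrank F V) (hM : RatM q j M) (hO : OnlyRat q j M) {g1 : OGrp Q}
    (hg1 : g1 ∈ M) (hP1 : ¬ Pres j g1) : False := by
  classical
  have hfd := R.fd
  have hfdV := R.fdV
  have hnq := R.nd hQ
  have hfr := R.finrank_eq
  have : Fintype F := Fintype.ofFinite F
  have : Fintype K := Fintype.ofFinite K
  obtain ⟨g, hg, a, e, ha, ha0, he, he0, hae, hP⟩ := exists_perp_pair R hQ hn hM hO hg1 hP1
  set x := (g : V ≃ₗ[F] V) (j a) with hx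
  have hqx : Q x = 0 := by rw [hx, OGrp_q, R.jq, ha, map_zero]
  have hqy : Q (j e) = 0 := by rw [R.jq, he, map_zero]
  have hea : polar Q (j e) x = 0 := by rw [pc]; exact hae
  let G := PlaneGrp M x (j e)
  have hneg : -1 ∈ G := by
    refine ⟨1, M.one_mem, -1, by ring, ?_, ?_⟩
    · rw [coe_one_apply]; simp
    · rw [coe_one_apply]; simp
  let Γ : Finset F := Finset.univ.filter fun c => xm c ∈ G
  let Λ : Finset F := Finset.univ.filter fun a => ∃ A ∈ G, A 1 0 = 0 ∧ A 0 0 = a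
  have hΓ : ∀ c, c ∈ Γ ↔ xm c ∈ G := fun c => by simp [Γ]
  have hΛ : ∀ a, a ∈ Λ ↔ ∃ A ∈ G, A 1 0 = 0 ∧ A 0 0 = a := fun c => by simp [Λ]
  -- unipotent part
  have hΓcard : Nat.card K ^ 5 ≤ Γ.card := by
    refine card_values R hQ hn ha0 (φ := fun u => polar Q ((g : V ≃ₗ[F] V) (j u)) (j e)) ?_ ?_ ?_
      Γ ?_
    · intro u v; rw [R.jadd, map_add, pal]
    · intro k u; rw [R.jsmul, map_smul, psl]
    · intro u hu hφ
      exact perp_singular R hQ hn hM hO hg hP ha ha0 he he0 hae hu hφ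
    · intro u hu
      rw [hΓ]
      obtain ⟨h1, h2, h3⟩ := (hM a u ha hu).conj hg
      refine ⟨_, h3, 1, one_mul 1, ?_, ?_⟩
      · rw [one_smul, eich_fix h1 h2 (by rw [pself, h1, mul_zero]) h2, ← hx]
        simp [xm]
      · rw [one_smul, eich_apply, ← hx, hea]
        simp only [xm, zero_smul, mul_zero, sub_zero]
        rw [pc Q (j e)]
        simp
        abel
  -- torus part
  have hΛsq : ∀ c ∈ Λ, ∃ ν : K, algebraMap K F ν = c * c := by
    intro c hc
    obtain ⟨A, ⟨h, hh, ε, hε, h1, h2⟩, hA10, hA00⟩ := (hΛ c).1 hc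
    rw [hA10, hA00, zero_smul, add_zero, smul_smul] at h1
    have h3 : ((g⁻¹ * h * g : OGrp Q) : V ≃ₗ[F] V) (j a) = (ε * c) • j a := by
      rw [coe_mul_apply, coe_mul_apply, ← hx, h1, map_smul, hx, coe_inv_apply_self]
    obtain ⟨ν, hν⟩ := stepB_sq R hQ hn hM hO (M.mul_mem (M.mul_mem (M.inv_mem hg) hh) hg) ha ha0 h3
    refine ⟨ν, ?_⟩
    rw [hν]
    linear_combination (c * c) * hε
  have hΛcard : Λ.card ≤ 2 * Nat.card K := by
    have h1 : Λ.card ≤ 2 * (Λ.image fun c => c * c).card := by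
      refine Finset.card_le_mul_card_image Λ 2 ?_
      intro b hb
      obtain ⟨c, hc, rfl⟩ := Finset.mem_image.1 hb
      have h2 : (Λ.filter fun d => d * d = c * c) ⊆ {c, -c} := by
        intro d hd
        rw [Finset.mem_filter] at hd
        rw [Finset.mem_insert, Finset.mem_singleton]
        exact mul_self_eq_mul_self_iff.1 hd.2
      exact (Finset.card_le_card h2).trans Finset.card_le_two
    have h2 : (Λ.image fun c => c * c).card ≤ Nat.card K := by
      have h3 : (Λ.image fun c => c * c) ⊆ Finset.univ.image (algebraMap K F) := by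
        intro b hb
        obtain ⟨c, hc, rfl⟩ := Finset.mem_image.1 hb
        obtain ⟨ν, hν⟩ := hΛsq c hc
        exact Finset.mem_image.2 ⟨ν, Finset.mem_univ _, hν⟩
      have h4 := (Finset.card_le_card h3).trans Finset.card_image_le
      rwa [Finset.card_univ, ← Nat.card_eq_fintype_card] at h4
    omega
  -- infinity moves
  have hmove : ∃ A ∈ G, A 1 0 ≠ 0 := by
    have hu : ∃ u, polar q e u = 0 ∧ polar Q x (j u) ≠ 0 := by
      by_contra hcon
      push Not at hcon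
      obtain ⟨e', he', hee⟩ := exists_partner hnq he he0
      have h1 : x = polar Q x (j e') • j e := by
        refine sub_eq_zero.1 (R.jzero_of_polar hQ fun u => ?_)
        have h2 := hcon (u - polar q e u • e') (by rw [pdr, psr, hee]; ring)
        rw [R.jsub, R.jsmul, pdr, psr] at h2
        rw [pdl, psl, R.jpolar]
        linear_combination h2
      exact hP (stepB R hQ hn hM hO hg ha ha0 (hx.symm.trans h1))
    obtain ⟨u, hu1, hu2⟩ := hu
    obtain ⟨h1, h2, h3⟩ := hM e u he hu1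
    refine ⟨⟨!![1, 0; polar Q x (j u), 1], by simp⟩, ⟨_, h3, 1, one_mul 1, ?_, ?_⟩, ?_⟩
    · rw [one_smul, eich_apply, hae]
      simp
    · rw [one_smul, eich_fix h1 h2 (by rw [pself, h1, mul_zero]) h2]
      simp
    · simpa using hu2
  refine p1_false G hneg Γ hΓ Λ hΛ ?_ hmove
  have hK : 2 ≤ Nat.card K := Finite.one_lt_card
  have : 4 * Nat.card K + 2 ≤ Nat.card K ^ 5 := by
    have h1 : 2 ^ 4 * Nat.card K ≤ Nat.card K ^ 5 := by
      rw [pow_succ (Nat.card K) 4]
      exact Nat.mul_le_mul_right _ (Nat.pow_le_pow_left hK 4)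
    omega
  omega

/-- **Maximality, abstract form.** -/
theorem subfield_maximal [Finite K] [Finite F] (R : RatF q Q j)
    (hQ : (polarBilin Q).Nondegenerate)
    (hn : 11 ≤ Module.finrank F V) (hM : RatM q j M)
    (hdeg : ∀ S : Subring F, (∀ k, algebraMap K F k ∈ S) →
      (∃ x ∈ S, ∀ k, algebraMap K F k ≠ x) → S = ⊤)
    (hP : ∃ g ∈ M, ¬ Pres j g) : commutator (OGrp Q) ≤ M := by
  by_contra hcon
  obtain ⟨g, hg, hgP⟩ := hP
  refine stepC R hQ hn hM ?_ hg hgP
  intro e x he he0 hx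
  by_contra hx'
  exact hcon (stepA R hQ hn hM hdeg he he0 hx hx')

end Cfsg.Agent.OMax
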